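import Cfsg.Agent.MinI.OMain2
import Cfsg.Agent.MinI.Exist
import Cfsg.Agent.Orth.Simple

/-!
Minimal index of the orthogonal groups.
-/

set_option autoImplicit false

namespace Cfsg.Agent.MinI

open QuadraticMap Module Cfsg.Agent.Orth

variable {F : Type*} [Field F] [Finite F] {ι : Type} [Fintype ι] [DecidableEq ι]
  {Q : QuadraticForm F (ι → F)}

theorem pomega_min (hQ : ND Q) (hn : 7 ≤ Fintype.card ι) {b κ : ℕ} {c : F} (hκ0 : 0 < κ)
    (hw : ∃ w, w ≠ 0 ∧ Q w = c) (hκ : Nat.card {l : F // l ≠ 0 ∧ l ^ 2 * c = c} = κ)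
    (hb : b * κ = Nat.card {x // x ≠ 0 ∧ Q x = c})
    (h1 : b ≤ (Nat.card F + 2) * Nat.card F ^ (Fintype.card ι - 3))
    (h2 : ∀ n, nv Q 0 ≤ (Nat.card F - 1) * n + 1 → b ≤ n)
    (h3 : ∀ n (c : F), c ≠ 0 → 2 * Nat.card F ^ (Fintype.card ι - 2) + nv Q c ≤
        2 * n + (Nat.card F - 1) * Nat.card F ^ (Fintype.card ι - 2) →
      ((2 : F) = 0 → Nat.card F ^ (Fintype.card ι - 2) + nv Q c ≤
        n + (Nat.card F - 1) * Nat.card F ^ (Fintype.card ι - 2)) → b ≤ n)
    (h4 : Fintype.card ι = 8 → IsPlus Q → Nat.card F ≤ 3 →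
      b ≤ Nat.card F ^ 3 * (Nat.card F + 1) * (Nat.card F ^ 2 + 1)) :
    (∀ H : Subgroup (Cfsg.POmega F ⇑Q), H ≠ ⊤ → b ≤ H.index) ∧
      ∃ H : Subgroup (Cfsg.POmega F ⇑Q), H.index = b := by
  have hd : finrank F (ι → F) = Fintype.card ι := Module.finrank_fintype_fun_eq_card F
  have hg : Good F (ι → F) := good_of_five_le (by omega)
  have he := hQ.commutator_eq_eichGroup hg (by omega)
  let e := (MulEquiv.subgroupCongr he).symm
  refine min_index_of_surj ((pomegaEquiv Q).symm.toMonoidHom.comp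
    ((QuotientGroup.mk' _).comp e.toMonoidHom))
    ((pomegaEquiv Q).symm.surjective.comp ((QuotientGroup.mk'_surjective _).comp e.surjective))
    (fun H hH => ?_) ?_
  · by_contra hlt
    rw [Subgroup.index_eq_card] at hlt
    rcases omega_main (Ω := eichGroup Q ⧸ H) hQ (by omega) (exists_smul_ne hH)
      (by rw [hd]; omega) with h | ⟨c, hc, h, h'⟩ | ⟨h, h', h'', h'''⟩
    · exact hlt (h2 _ h)
    · rw [hd] at h h'
      exact hlt (h3 _ c hc h h')
    · exact hlt ((h4 (hd ▸ h) h' h'').trans h''')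
  · obtain ⟨w, hw⟩ := hw
    obtain ⟨K, hK, hK'⟩ := exists_index (G := eichGroup Q) (F := F) {x | x ≠ 0 ∧ Q x = c} (by simp)
      (fun g x hx => ⟨fun e => hx.1 ((OG.apply_eq_zero g.1).1 e), (OG.map_Q g.1 x).trans hx.2⟩)
      (fun x hx y hy => (exists_fix_map (Q := Q) (ι := LinearMap.id) (fun _ => rfl) hQ (by omega)
        hx.1 hy.1 (hx.2.trans hy.2.symm)).imp fun _ h => h.1) hw (κ := κ) fun x hx => by
        rw [← hκ]
        exact Nat.card_congr (Equiv.subtypeEquivRight fun l => by simp [hx.1, q_smul, hx.2])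
    refine ⟨K, fun g hg' => hK g ?_, Nat.eq_of_mul_eq_mul_right hκ0 (hK'.trans hb.symm)⟩
    have : e g ∈ Subgroup.center _ :=
      (QuotientGroup.eq_one_iff _).1 ((pomegaEquiv Q).symm.map_eq_one_iff.1 hg')
    rcases (hQ.mem_center_commutator_iff hg (by omega) _).1 this with h | h
    · exact ⟨1, fun v => by
        rw [one_smul]; exact congrArg (fun x : OG Q => x.1 v) h⟩
    · exact ⟨-1, fun v => by
        rw [neg_one_smul]; exact congrArg (fun x : OG Q => x.1 v) h⟩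

omit [Fintype ι] [DecidableEq ι] in
theorem kappa_zero : Nat.card {l : F // l ≠ 0 ∧ l ^ 2 * (0 : F) = 0} = Nat.card F - 1 := by
  have := card_ne_zero_add (p := fun l : F => l ^ 2 * (0 : F) = 0) (by simp)
  rw [Nat.card_congr (Equiv.subtypeUnivEquiv fun l : F => mul_zero (l ^ 2))] at this
  omega

theorem nv_plus_prod {V : Type*} [AddCommGroup V] [Module F V] [FiniteDimensional F V]
    (Q : QuadraticForm F V) (m : ℕ) (c : F) : (Nat.card F : ℤ) * nv ((plusQ m F).prod Q) c =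
      (Nat.card F : ℤ) ^ (2 * m + finrank F V) +
        (Nat.card F : ℤ) ^ m * (Nat.card F * nv Q c - Nat.card F ^ finrank F V) := by
  induction m with
  | zero => rw [← nv_iso (zeroProdIso _ Q)]; simp
  | succ m ih => rw [nv_plus_prod_succ, mul_add, ih]; ring

theorem nv_plus_ne (m : ℕ) {c : F} (hc : c ≠ 0) :
    nv (plusQ (m + 1) F) c + Nat.card F ^ m = Nat.card F ^ (2 * m + 1) := by
  have h := nv_plus_prod (0 : QuadraticForm F (Fin 0 → F)) (m + 1) c
  rw [← nv_iso (prodZeroIso _ _), show nv (0 : QuadraticForm F (Fin 0 → F)) c = 0 by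
    simp [nv, hc.symm]] at h
  have hq : (Nat.card F : ℤ) ≠ 0 := by exact_mod_cast Nat.card_pos.ne'
  zify
  refine mul_left_cancel₀ hq ?_
  rw [mul_add, h]; simp; ring

theorem nv_odd_ge (m : ℕ) (c : F) : Nat.card F ^ (2 * m) ≤ nv (oddQ m F) c + Nat.card F ^ m ∧
    (¬ IsSquare c → nv (oddQ m F) c + Nat.card F ^ m = Nat.card F ^ (2 * m)) := by
  have h := nv_plus_prod (unQ (1 : F)) m c
  rw [nv_iso (oddIso m), finrank_self] at h
  have hq : (0 : ℤ) < Nat.card F := by exact_mod_cast Nat.card_pos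
  have h' : (nv (oddQ m F) c : ℤ) + Nat.card F ^ m =
      Nat.card F ^ (2 * m) + Nat.card F ^ m * nv (unQ (1 : F)) c :=
    mul_left_cancel₀ hq.ne' (by rw [mul_add, h]; ring)
  refine ⟨?_, fun hc => ?_⟩
  · zify; rw [h']; exact le_add_of_nonneg_right (by positivity)
  · haveI : IsEmpty {v // unQ (1 : F) v = c} :=
      ⟨fun v => hc ⟨v.1, v.2.symm.trans (by rw [unQ_apply]; ring)⟩⟩
    rw [show nv (unQ (1 : F)) c = 0 from Nat.card_of_isEmpty] at h'
    zify; rw [h']; simp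

theorem nv_minus_ge (m : ℕ) {a b : F} (hab : Aniso a b) (c : F) :
    Nat.card F ^ (2 * m + 1) + Nat.card F ^ m ≤ nv (minusQ m F a b) c + Nat.card F ^ (m + 1) := by
  have h := nv_plus_prod (binQ a b) m c
  rw [nv_iso (minusIso m a b), Module.finrank_fin_fun] at h
  have hq : (0 : ℤ) < Nat.card F := by exact_mod_cast Nat.card_pos
  have h' : (nv (minusQ m F a b) c : ℤ) + Nat.card F ^ (m + 1) =
      Nat.card F ^ (2 * m + 1) + Nat.card F ^ m * nv (binQ a b) c :=
    mul_left_cancel₀ hq.ne' (by rw [mul_add, h]; ring)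
  haveI : Nonempty {v // binQ a b v = c} :=
    nonempty_subtype.2 (hab.nd.exists_Q_eq (by simp) c)
  have h1 : (1 : ℤ) ≤ nv (binQ a b) c := by exact_mod_cast Nat.card_pos
  zify; rw [h']
  nlinarith [pow_pos hq m]

theorem sing_dvd {V : Type*} [AddCommGroup V] [Module F V] [FiniteDimensional F V]
    (Q : QuadraticForm F V) : Nat.card F - 1 ∣ Nat.card {x // x ≠ 0 ∧ Q x = 0} := by
  haveI := Module.finite_of_finite F (M := V)
  exact sub_one_dvd_card {x | x ≠ 0 ∧ Q x = 0} (by simp) fun c hc v hv =>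
    ⟨smul_ne_zero hc hv.1, by rw [q_smul, hv.2, mul_zero]⟩

theorem card_ne_eq {V : Type*} [AddCommGroup V] [Module F V] (Q : QuadraticForm F V) {c : F}
    (hc : c ≠ 0) : Nat.card {x // x ≠ 0 ∧ Q x = c} = nv Q c :=
  Nat.card_congr (Equiv.subtypeEquivRight fun _ => and_iff_right_of_imp fun h =>
    ne_zero_of_Q_ne_zero (h ▸ hc))

/-- The case where the singular points give the minimal index. -/
theorem pomega_min_sing (hQ : ND Q) (hn : 7 ≤ Fintype.card ι) {s : ℕ} (hs : s + 1 = nv Q 0)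
    (h1 : s ≤ (Nat.card F - 1) * ((Nat.card F + 2) * Nat.card F ^ (Fintype.card ι - 3)))
    (h3 : ∀ n (c : F), c ≠ 0 → 2 * Nat.card F ^ (Fintype.card ι - 2) + nv Q c ≤
        2 * n + (Nat.card F - 1) * Nat.card F ^ (Fintype.card ι - 2) →
      ((2 : F) = 0 → Nat.card F ^ (Fintype.card ι - 2) + nv Q c ≤
        n + (Nat.card F - 1) * Nat.card F ^ (Fintype.card ι - 2)) → s ≤ (Nat.card F - 1) * n)
    (h4 : Fintype.card ι = 8 → IsPlus Q → 3 < Nat.card F) :
    (∀ H : Subgroup (Cfsg.POmega F ⇑Q), H ≠ ⊤ → s / (Nat.card F - 1) ≤ H.index) ∧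
      ∃ H : Subgroup (Cfsg.POmega F ⇑Q), H.index = s / (Nat.card F - 1) := by
  have hq : 1 < Nat.card F := Finite.one_lt_card
  have e : Nat.card {x // x ≠ 0 ∧ Q x = 0} = s := by have := nv_zero_eq (Q := Q); omega
  refine pomega_min hQ hn (κ := Nat.card F - 1) (c := 0) (by omega)
    (exists_singular Q (by rw [Module.finrank_fintype_fun_eq_card]; omega)) kappa_zero
    (by rw [e]; exact Nat.div_mul_cancel (e ▸ sing_dvd Q)) (Nat.div_le_of_le_mul h1)
    (fun n h => Nat.div_le_of_le_mul (by omega))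
    (fun n c hc h h' => Nat.div_le_of_le_mul (h3 n c hc h h'))
    fun a b c => absurd (h4 a b) (by omega)

end Cfsg.Agent.MinI
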