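import Cfsg.Agent.MinI.OMain
import Cfsg.Agent.Orth.Base

/-!
The group generated by Eichler maps acting on a small finite set: the main theorem.
-/

set_option autoImplicit false

namespace Cfsg.Agent.MinI

open QuadraticMap Module Cfsg.Agent.Orth

variable {F V : Type*} [Field F] [AddCommGroup V] [Module F V] {Q : QuadraticForm F V}
  {Ω : Type*} [MulAction (eichGroup Q) Ω] [Finite F] [FiniteDimensional F V] [Finite Ω]

theorem nv_zero_eq : Nat.card {x // x ≠ 0 ∧ Q x = 0} + 1 = nv Q 0 := by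
  haveI := Module.finite_of_finite F (M := V)
  exact card_ne_zero_add (p := fun x => Q x = 0) (map_zero Q)

theorem Pt.card_fib (p : Pt Q) {ω : Ω} {k : ℕ} (h : k * Nat.card (p.B ω) = Nat.card p.P) :
    k ≤ Nat.card {x : Ω // p.B x = p.B ω} := by
  haveI := Module.finite_of_finite F (M := p.P)
  have h1 := card_orbit_add (fun t : p.P => rho Q p.u t) p.hx ω
  rw [← h] at h1
  rw [← Nat.eq_of_mul_eq_mul_right Nat.card_pos h1]
  refine Nat.card_le_card_of_injective (fun y => ⟨y.1, ?_⟩) fun y y' e => Subtype.ext (by simpa using e)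
  obtain ⟨_, g, rfl⟩ := y
  exact addStab_smul g ω

/-- `B` is a hyperplane. -/
def Pt.Hyp (p : Pt Q) (w : p.P) (ω : Ω) : Prop := ∀ t, t ∈ p.B ω ↔ polar p.Q1 w t = 0

theorem Pt.hyp_count (hQ : ND Q) (hn : 7 ≤ finrank F V) (p : Pt Q) {w : p.P} (hw : w ≠ 0) {ω : Ω}
    (h : p.Hyp w ω) {κ : ℕ} (hκ : Nat.card {l : F // l ≠ 0 ∧ l ^ 2 * p.Q1 w = p.Q1 w} ≤ κ) :
    Nat.card {x // x ≠ 0 ∧ p.Q1 x = p.Q1 w} * Nat.card F ≤
      Nat.card {x : Ω // ∃ w, w ≠ 0 ∧ p.Hyp w x} * κ := by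
  haveI := Module.finite_of_finite F (M := p.P)
  have d1 := p.dim hQ
  have hQ1 := p.nd hQ
  refine double_count (fun (x : {x // x ≠ 0 ∧ p.Q1 x = p.Q1 w})
    (y : {x : Ω // ∃ w, w ≠ 0 ∧ p.Hyp w x}) => p.Hyp x.1 y.1) (fun x => ?_) fun y => ?_
  · obtain ⟨y, hy⟩ : ∃ y : Ω, p.Hyp x.1 y := by
      refine eich_ind hQ1 (by omega) (fun x => ∃ y : Ω, p.Hyp x y) ?_ hw x.2.1 x.2.2.symm ⟨ω, h⟩
      rintro s t x hs ht ⟨y, hy⟩
      refine ⟨rho Q s t • y, fun a => ?_⟩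
      have ht2 : polar p.Q1 s (-t) = 0 := by rw [polar_neg_right, ht, neg_zero]
      have e : a = eichLin p.Q1 s t (eichLin p.Q1 s (-t) a) := by
        rw [eichLin_mul hs ht ht2, add_neg_cancel, eichLin_zero]
      rw [e, p.B_eich _ hs ht, polar_of_isom _ (eichLin_Q hs ht)]
      exact hy _
    refine (p.card_fib (ω := y) ?_).trans (Nat.card_le_card_of_injective
      (fun z => ⟨⟨z.1, x.1, x.2.1, fun t => by rw [z.2]; exact hy t⟩, fun t => by
        rw [z.2]; exact hy t⟩) fun z z' e => Subtype.ext (congrArg (fun w => w.1.1) e))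
    rw [card_eq_pow (F := F) p.P, ← card_perp hQ1 x.2.1]
    congr 1
    exact Nat.card_congr (Equiv.subtypeEquivRight hy)
  · refine le_trans ?_ hκ
    rcases isEmpty_or_nonempty {x : {x // x ≠ 0 ∧ p.Q1 x = p.Q1 w} // p.Hyp x.1 y.1} with e | ⟨⟨x₀⟩⟩
    · simp
    have key : ∀ x : {x : {x // x ≠ 0 ∧ p.Q1 x = p.Q1 w} // p.Hyp x.1 y.1},
        ∃ l : F, l • x₀.1.1 = x.1.1 := fun x => by
      rw [← Submodule.mem_span_singleton, ← hQ1.perp_perp (Submodule.span F {x₀.1.1}), mem_perp']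
      exact fun t ht => (x.2 t).1 ((x₀.2 t).2 (mem_perp_singleton.1 ht))
    choose l hl using key
    refine Nat.card_le_card_of_injective (fun x => ⟨l x, fun e => x.1.2.1 ?_, ?_⟩) fun x x' e => ?_
    · rw [← hl, e, zero_smul]
    · have := x.1.2.2
      rwa [← hl x, q_smul, x₀.1.2.2] at this
    · have e' : l x = l x' := congrArg Subtype.val e
      exact Subtype.ext (Subtype.ext (by rw [← hl, e', hl]))

theorem arith_one {q b k ν₁ n ρ s : ℕ} (hq : 2 ≤ q) (hb : 5 ≤ b)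
    (hν : ν₁ = (q - 1) * q ^ (b - 2) + q * k) (hs : s + 1 = (q - 1) * q ^ b + q * ν₁) (h1 : 1 ≤ ν₁)
    (hn : n * (q - 1) = q ^ b * (q - 1) + (ν₁ - 1) * q) (h : s * q ^ b = n * ρ) : False := by
  obtain ⟨q, rfl⟩ := Nat.exists_eq_add_of_le' (show 1 ≤ q by omega)
  obtain ⟨a, rfl⟩ := Nat.exists_eq_add_of_le' hb
  obtain ⟨m, rfl⟩ := Nat.exists_eq_add_of_le' h1
  simp only [Nat.add_sub_cancel, show a + 5 - 2 = a + 3 from rfl] at *
  set Y := q * (q + 1) ^ (a + 4) + m with hY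
  have e1 : s = (q + 1) * Y + q := by
    have : s + 1 = (q + 1) * Y + q + 1 := by rw [hs, hY]; ring
    omega
  have e2 : n * q = (q + 1) * Y := by rw [hn, hY]; ring
  have e3 : Y + 1 = (q + 1) * (q * (q + 1) ^ (a + 3) + q * (q + 1) ^ (a + 2) + k) := by
    rw [hY, add_assoc, hν]; ring
  have hc : Nat.Coprime Y (q + 1) :=
    (Nat.coprime_self_add_right.2 (Nat.coprime_one_right Y)).coprime_dvd_right ⟨_, e3⟩
  have hd : Y ∣ q * q * (q + 1) ^ (a + 5) := by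
    have e4 : q * ((q + 1) * Y + q) * (q + 1) ^ (a + 5) = (q + 1) * Y * ρ := by
      rw [← e1, ← e2, mul_assoc, h]; ring
    refine (Nat.dvd_add_right (a := Y) (Dvd.intro (q * (q + 1) ^ (a + 6)) rfl)).1 ?_
    exact ⟨(q + 1) * ρ, by rw [show Y * ((q + 1) * ρ) = (q + 1) * Y * ρ by ring, ← e4]; ring⟩
  have hq0 : 0 < q := by omega
  have := Nat.le_of_dvd (by positivity) ((hc.pow_right _).dvd_of_dvd_mul_right hd)
  have h2 : q + 1 ≤ (q + 1) ^ (a + 4) := Nat.le_self_pow (by omega) _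
  nlinarith

theorem arith_three {q n ν ν₁ s N M m H R : ℕ} (hq : 2 ≤ q) (hlt : ¬ ν ≤ (q - 1) * n + 1)
    (hN : s = (q - 1) * N) (h6 : s + 1 = ν) (h5 : ν = (q - 1) * M + q * ν₁) (h4 : m + 1 = ν₁)
    (h3 : m * q ≤ H * (q - 1)) (hsum : R + H ≤ n) (hReg : M ≤ R) :
    R = M ∧ n * (q - 1) = M * (q - 1) + (ν₁ - 1) * q := by
  obtain ⟨q, rfl⟩ := Nat.exists_eq_add_of_le' (show 1 ≤ q by omega)
  subst h4
  simp only [Nat.add_sub_cancel] at *
  have hNn : n + 1 ≤ N := by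
    by_contra hh
    have : q * N ≤ q * n := Nat.mul_le_mul_left _ (by omega)
    omega
  have a1 : q * (n + 1) ≤ q * N := Nat.mul_le_mul_left _ hNn
  have a2 : q * (R + H) ≤ q * n := Nat.mul_le_mul_left _ hsum
  have a3 : q * M ≤ q * R := Nat.mul_le_mul_left _ hReg
  have a4 : q * R ≤ q * M := by nlinarith
  exact ⟨le_antisymm (Nat.le_of_mul_le_mul_left a4 (by omega)) hReg, by nlinarith⟩

theorem arith_two {q n φ z a : ℕ} (hq : 2 ≤ q) (ha : q ^ 3 * (q + 1) * (q ^ 2 + 1) ≤ a)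
    (hn : φ + a ≤ n) (hlt : n < (q + 1) * (q ^ 2 + 1) * (q ^ 3 + 1))
    (h : (q + 1) * (q ^ 2 + 1) * (q ^ 3 + 1) * φ = n * z) : φ = 0 := by
  by_contra h0
  set σ := (q + 1) * (q ^ 2 + 1) with hσ
  have hσ4 : σ < 4 * q ^ 3 := by rw [hσ]; nlinarith [Nat.pow_le_pow_left hq 2]
  rw [mul_assoc, ← hσ] at ha
  have h1 : φ + 1 ≤ z := by
    by_contra h1
    have := Nat.mul_lt_mul_of_lt_of_le hlt (show z ≤ φ by omega) (Nat.pos_of_ne_zero h0)
    omega
  obtain ⟨c, hc⟩ := Nat.exists_eq_add_of_lt hlt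
  obtain ⟨e, he⟩ := Nat.exists_eq_add_of_le (show q ^ 3 * σ + φ ≤ n by omega)
  have h2 : n ≤ (c + 1) * φ := by nlinarith
  have h3 : φ + (c + 1) ≤ σ := by nlinarith
  have h4 : 4 * ((c + 1) * φ) ≤ σ * σ := by nlinarith [sq_nonneg ((c + 1 : ℤ) - φ)]
  have hσ0 : 0 < σ := by positivity
  nlinarith

theorem card_sq_eq_one_le : Nat.card {l : F // l ^ 2 = 1} ≤ 2 ∧
    ((2 : F) = 0 → Nat.card {l : F // l ^ 2 = 1} ≤ 1) := by
  classical
  haveI := Fintype.ofFinite F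
  rw [Nat.card_eq_fintype_card, Fintype.card_subtype]
  refine ⟨(Finset.card_le_card (t := {1, -1}) fun x hx => ?_).trans Finset.card_le_two, fun h2 =>
    (Finset.card_le_card (t := {1}) fun x hx => ?_).trans (by simp)⟩
  · simpa using hx
  · have : x = 1 ∨ x = -1 := by simpa using hx
    rcases this with h | h
    · simp [h]
    · rw [Finset.mem_singleton, h]; linear_combination -h2

theorem omega_main (hQ : ND Q) (hn : 7 ≤ finrank F V) [MulAction.IsPretransitive (eichGroup Q) Ω]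
    (hnt : ∃ (g : eichGroup Q) (ω : Ω), g • ω ≠ ω)
    (hΩ : Nat.card Ω < (Nat.card F + 2) * Nat.card F ^ (finrank F V - 3)) :
    nv Q 0 ≤ (Nat.card F - 1) * Nat.card Ω + 1 ∨
    (∃ c : F, c ≠ 0 ∧ 2 * Nat.card F ^ (finrank F V - 2) + nv Q c ≤
        2 * Nat.card Ω + (Nat.card F - 1) * Nat.card F ^ (finrank F V - 2) ∧
      ((2 : F) = 0 → Nat.card F ^ (finrank F V - 2) + nv Q c ≤
        Nat.card Ω + (Nat.card F - 1) * Nat.card F ^ (finrank F V - 2))) ∨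
    (finrank F V = 8 ∧ IsPlus Q ∧ Nat.card F ≤ 3 ∧
      Nat.card F ^ 3 * (Nat.card F + 1) * (Nat.card F ^ 2 + 1) ≤ Nat.card Ω) := by
  classical
  haveI := Module.finite_of_finite F (M := V)
  obtain ⟨u, hu0, hu⟩ := exists_singular Q (by omega)
  obtain ⟨p, rfl⟩ := exists_pt hQ hu0 hu
  have d1 := p.dim hQ
  have hQ1 := p.nd hQ
  have hq : 1 < Nat.card F := Finite.one_lt_card
  have hline := fun (v : p.P) (hv0 : v ≠ 0) (hv : p.Q1 v = 0) (ω : Ω) (hω : ¬ TG F (p.B ω) v) => by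
    have hr := (exists_pt hQ1 hv0 hv).choose_spec
    have := p.line hQ hn hΩ (exists_pt hQ1 hv0 hv).choose (ω := ω) (by rwa [hr])
    rw [hr] at this
    exact this
  have hty : ∀ ω : Ω, Typed p.Q1 (p.B ω) := fun ω v hv0 hv => by
    by_cases h : TG F (p.B ω) v
    · exact Or.inl h
    · rcases (hline v hv0 hv ω h).2 with ⟨h | h, -⟩ | ⟨h, -⟩
      · exact Or.inr (Or.inl h)
      · exact Or.inr (Or.inr (Or.inl h))
      · exact Or.inr (Or.inr (Or.inr h))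
  rw [show finrank F V - 2 = finrank F p.P by omega]
  by_cases hI : ∃ v, v ≠ 0 ∧ p.Q1 v = 0 ∧ (∃ x : Ω, TS p.Q1 (p.B x) v) ∧ ∃ x : Ω, TN p.Q1 (p.B x) v
  · obtain ⟨v, hv0, hv, ⟨x₁, h1⟩, x₂, h2⟩ := hI
    obtain ⟨w, hw0, hw⟩ := (hty x₁).hyper hQ1 (by omega) hv0 hv h1
    have hb := (hty x₂).eq_bot hQ1 (by omega) h2
    have hReg : Nat.card F ^ finrank F p.P ≤ Nat.card {x : Ω // p.B x = ⊥} := by
      have := p.card_fib (ω := x₂) (k := Nat.card F ^ finrank F p.P)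
        (by rw [hb, AddSubgroup.card_bot, mul_one, card_eq_pow (F := F) p.P])
      rwa [hb] at this
    have hsum := card_add_le (p := fun x : Ω => p.B x = ⊥) (r := fun x => ∃ w, w ≠ 0 ∧ p.Hyp w x) (by
      rintro x hx ⟨w, -, hw⟩
      obtain ⟨s, hs0, -, hs, -⟩ := exists_sing_orth_two hQ1 (by omega) w w
      have := (hw s).2 hs
      rw [hx, AddSubgroup.mem_bot] at this
      exact hs0 this)
    by_cases hc : p.Q1 w = 0
    · left
      have h3 := p.hyp_count hQ hn hw0 hw (κ := Nat.card F - 1) (by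
        have := card_ne_zero_add (p := fun l : F => l ^ 2 * p.Q1 w = p.Q1 w) (by simp [hc])
        have := Finite.card_subtype_le fun l : F => l ^ 2 * p.Q1 w = p.Q1 w
        omega)
      rw [hc] at h3
      have h4 := nv_zero_eq (Q := p.Q1)
      have h5 := p.nv_eq hQ 0
      by_contra hlt
      have hdvd : Nat.card F - 1 ∣ Nat.card {x // x ≠ 0 ∧ Q x = 0} :=
        sub_one_dvd_card {x | x ≠ 0 ∧ Q x = 0} (by simp) fun c hc v hv =>
          ⟨smul_ne_zero hc hv.1, by rw [q_smul, hv.2, mul_zero]⟩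
      obtain ⟨N, hN⟩ := hdvd
      have h6 := nv_zero_eq (Q := Q)
      obtain ⟨v', hv0', hv'⟩ := exists_singular p.Q1 (by omega)
      obtain ⟨r, -⟩ := exists_pt hQ1 hv0' hv'
      have h7 := r.nv_eq hQ1 0
      have d2 := r.dim hQ1
      have h8 := rel_count hQ (by omega) (Reg Q) (fun u ω h g => h.smul g) hu0 hu x₁
      rw [Nat.card_congr (Equiv.subtypeEquivRight p.reg_iff)] at h8
      rw [show finrank F r.P = finrank F p.P - 2 by omega] at h7
      have e1 := arith_three hq hlt hN h6 h5 h4 h3 hsum hReg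
      rw [e1.1] at h8
      exact arith_one hq (by omega) h7 (h6.trans h5) nv_pos e1.2 h8
    · right; left
      have h4 : Nat.card {x // x ≠ 0 ∧ p.Q1 x = p.Q1 w} = nv p.Q1 (p.Q1 w) :=
        Nat.card_congr (Equiv.subtypeEquivRight fun x => and_iff_right_of_imp fun h =>
          ne_zero_of_Q_ne_zero (h ▸ hc))
      have h5 : Nat.card {l : F // l ≠ 0 ∧ l ^ 2 * p.Q1 w = p.Q1 w} ≤ Nat.card {l : F // l ^ 2 = 1} :=
        Nat.card_le_card_of_injective (fun l => ⟨l.1, mul_right_cancel₀ hc (by simpa using l.2.2)⟩)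
          fun l l' e => Subtype.ext (congrArg (fun x => x.1) e)
      refine ⟨_, hc, ?_, fun h2 => ?_⟩
      · have h3 := p.hyp_count hQ hn hw0 hw (h5.trans card_sq_eq_one_le.1)
        rw [h4] at h3
        rw [p.nv_eq hQ]
        nlinarith
      · have h3 := p.hyp_count hQ hn hw0 hw (h5.trans (card_sq_eq_one_le.2 h2))
        rw [h4] at h3
        rw [p.nv_eq hQ]
        nlinarith
  have hTT := fun (v : p.P) (hv0 : v ≠ 0) (hv : p.Q1 v = 0) (ω : Ω) (hω : ¬ TG F (p.B ω) v) =>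
    (hline v hv0 hv ω hω).2.resolve_left fun h => hI ⟨v, hv0, hv, h.2⟩
  have hfull : ∀ ω : Ω, p.B ω ≠ ⊤ → (∀ t ∈ p.B ω, p.Q1 t = 0) ∧
      (∀ c : F, ∀ t ∈ p.B ω, c • t ∈ p.B ω) ∧ Nat.card (p.B ω) = Nat.card F ^ 3 := fun ω hω => by
    by_contra hh
    refine hω (Typed.eq_top hQ1 (by omega) fun v hv => ?_)
    by_cases hv0 : v = 0
    · intro c; simp [hv0]
    · by_contra h
      exact hh ((hty ω).solid hQ1 (hTT v hv0 hv ω h).1)
  obtain ⟨v₀, hv0, hv⟩ := exists_singular p.Q1 (by omega)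
  obtain ⟨ω₀, hω₀⟩ := p.exists_bad hQ hn hnt hv0 hv
  obtain ⟨t1, t2⟩ := hTT v₀ hv0 hv ω₀ hω₀
  have d6 : finrank F p.P = 6 := t1.1
  have d8 : finrank F V = 8 := by omega
  have hplus1 : IsPlus p.Q1 := by
    obtain ⟨s1, s2, s3⟩ := (hty ω₀).solid hQ1 t1
    let Y : Submodule F p.P := { p.B ω₀ with smul_mem' := fun c x hx => s2 c x hx }
    refine ⟨Y, s1, ?_⟩
    have : Nat.card Y = Nat.card F ^ 3 := s3
    rw [card_eq_pow (F := F)] at this
    rw [Nat.pow_right_injective hq this, d6]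
  have hplus : IsPlus Q := by
    obtain ⟨e⟩ := hQ.iso_hyp_perp p.qu p.qu' p.uu'
    exact (isPlus_prod ((isPlus_plusQ 1).of_iso (plusOne F).symm) hplus1).of_iso e
  have hν : nv p.Q1 0 + Nat.card F ^ 2 = Nat.card F ^ 5 + Nat.card F ^ 3 := by
    obtain ⟨e⟩ := hQ1.iso_plusQ hplus1 (m := 3) d6
    have := nv_plusQ (F := F) 2
    rw [nv_iso e] at this
    zify; rw [this]; ring
  have hSol : Nat.card F ^ 3 * (Nat.card F + 1) * (Nat.card F ^ 2 + 1) ≤
      Nat.card {x : Ω // p.B x ≠ ⊤} := by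
    have hb : ∀ x : {x : Ω // p.B x ≠ ⊤}, Nat.card {v : {v // v ≠ 0 ∧ p.Q1 v = 0} //
        ¬ TG F (p.B x.1) v.1} ≤ Nat.card F ^ 5 - Nat.card F ^ 2 := fun x => by
      obtain ⟨s1, s2, s3⟩ := hfull x.1 x.2
      have a1 := card_add_le (X := {v // p.Q1 v = 0}) (p := fun v => v.1 ∈ p.B x.1)
        (r := fun v => ¬ TG F (p.B x.1) v.1) fun v h1 h2 => h2 fun c => s2 c _ h1
      have a2 : Nat.card (p.B x.1) ≤ Nat.card {v : {v // p.Q1 v = 0} // v.1 ∈ p.B x.1} :=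
        Nat.card_le_card_of_injective (fun t => ⟨⟨t.1, s1 _ t.2⟩, t.2⟩)
          fun t t' e => Subtype.ext (congrArg (fun y => y.1.1) e)
      have a3 : Nat.card {v : {v // v ≠ 0 ∧ p.Q1 v = 0} // ¬ TG F (p.B x.1) v.1} ≤
          Nat.card {v : {v // p.Q1 v = 0} // ¬ TG F (p.B x.1) v.1} :=
        Nat.card_le_card_of_injective (fun t => ⟨⟨t.1.1, t.1.2.2⟩, t.2⟩)
          fun t t' e => Subtype.ext (Subtype.ext (congrArg (fun y => y.1.1) e))
      change _ ≤ nv p.Q1 0 at a1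
      omega
    have := double_count (fun (v : {v // v ≠ 0 ∧ p.Q1 v = 0}) (x : {x : Ω // p.B x ≠ ⊤}) =>
      ¬ TG F (p.B x.1) v.1) (a := (Nat.card F + 1) * Nat.card F ^ 5) (fun v => by
        obtain ⟨ω, hω⟩ := p.exists_bad hQ hn hnt v.2.1 v.2.2
        have := (hline v.1 v.2.1 v.2.2 ω hω).1
        rw [d8] at this
        exact this.trans (Nat.card_le_card_of_injective
          (fun x => ⟨⟨x.1, fun e => x.2 fun c => e ▸ AddSubgroup.mem_top _⟩, x.2⟩)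
          fun t t' e => Subtype.ext (congrArg (fun y => y.1.1) e))) hb
    have h4 := nv_zero_eq (Q := p.Q1)
    have h5 : Nat.card F ^ 2 < Nat.card F ^ 5 := Nat.pow_lt_pow_right hq (by norm_num)
    refine Nat.le_of_mul_le_mul_right (le_trans (le_of_eq ?_) this) (Nat.sub_pos_of_lt h5)
    zify [h5.le] at h4 hν ⊢
    rw [eq_sub_of_add_eq h4, eq_sub_of_add_eq hν]; ring
  have hsum := card_add_le (p := fun x : Ω => p.B x = ⊤) (r := fun x => p.B x ≠ ⊤)
    fun x h h' => h' h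
  by_cases hA : nv Q 0 ≤ (Nat.card F - 1) * Nat.card Ω + 1
  · exact Or.inl hA
  refine Or.inr (Or.inr ⟨d8, hplus, ?_, by omega⟩)
  by_contra h4
  obtain ⟨x, a, t, ha0, ha, hat, ht, hx⟩ := t2 (by omega)
  obtain ⟨g, hg⟩ := exists_map_sing hQ (by omega) ha0 ha hu0 hu
  have hF : p.B (g • x) = ⊤ := by
    by_contra hh
    have := (p.solI_of _ (hfull _ hh).1).smul g⁻¹
    rw [← hg, eg_inv_apply, inv_smul_smul] at this
    exact ht (this t hat hx)
  have h8 := rel_count hQ (by omega) (Full Q) (fun u ω h g => h.smul g) hu0 hu x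
  rw [Nat.card_congr (Equiv.subtypeEquivRight p.full_iff)] at h8
  obtain ⟨z, hz⟩ : Nat.card F - 1 ∣ Nat.card {y // (y ≠ 0 ∧ Q y = 0) ∧ Full Q y x} :=
    sub_one_dvd_card {y | (y ≠ 0 ∧ Q y = 0) ∧ Full Q y x} (by simp) fun c hc v hv =>
      ⟨⟨smul_ne_zero hc hv.1.1, by rw [q_smul, hv.1.2, mul_zero]⟩, hv.2.scal hv.1.2 c hc⟩
  have h6 := nv_zero_eq (Q := Q)
  have h7 : Nat.card {x // x ≠ 0 ∧ Q x = 0} = (Nat.card F - 1) *
      ((Nat.card F + 1) * (Nat.card F ^ 2 + 1) * (Nat.card F ^ 3 + 1)) := by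
    have h5 := p.nv_eq hQ 0
    rw [d6] at h5
    zify [hq.le] at h5 h6 hν ⊢
    rw [eq_sub_of_add_eq h6, h5, eq_sub_of_add_eq hν]; ring
  rw [h7, hz, mul_assoc, mul_left_comm (Nat.card Ω)] at h8
  have h9 := arith_two hq hSol hsum (by
    refine Nat.lt_of_mul_lt_mul_left (a := Nat.card F - 1) ?_
    omega) (Nat.eq_of_mul_eq_mul_left (by omega) h8)
  haveI : Nonempty {x : Ω // p.B x = ⊤} := ⟨⟨_, hF⟩⟩
  exact Nat.card_pos.ne' h9

end Cfsg.Agent.MinI
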