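import Cfsg.Agent.MinI.SpMain
import Cfsg.Agent.MinI.Exist

/-!
Minimal index of the symplectic groups.
-/

set_option autoImplicit false

namespace Cfsg.Agent.MinI

open Module Cfsg.Agent.Classical SpWitt SpMat SpSimple

variable {F : Type*} [Field F] [Finite F]

omit [Finite F] in
theorem psp_of_sg {m b : ℕ} (h1 : ∀ H : Subgroup (SG (sB (Fin m) F)), H ≠ ⊤ → b ≤ H.index)
    (h2 : ∃ K : Subgroup (SG (sB (Fin m) F)), negSG _ ∈ K ∧ K.index = b) :
    (∀ H : Subgroup (Cfsg.PSp m F), H ≠ ⊤ → b ≤ H.index) ∧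
      ∃ H : Subgroup (Cfsg.PSp m F), H.index = b := by
  refine min_index_of_surj ((QuotientGroup.mk' _).comp (spEquiv (Fin m) F).symm.toMonoidHom)
    ((QuotientGroup.mk'_surjective _).comp (spEquiv (Fin m) F).symm.surjective) h1
    (h2.imp fun K h => ⟨fun g hg => ?_, h.2⟩)
  rcases (SpSimple.mem_center_iff sB_nondeg sB_alt).1
    ((mem_center_congr (spEquiv (Fin m) F).symm).1 ((QuotientGroup.eq_one_iff _).1 hg)) with rfl | rfl
  exacts [one_mem _, h.1]

theorem card_sp_space (m : ℕ) : Nat.card (Fin m ⊕ Fin m → F) = Nat.card F ^ (2 * m) := by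
  rw [card_eq_pow (F := F), finrank_eq, Fintype.card_fin]

theorem SPt.card_eq {m : ℕ} (p : SPt (sB (Fin (m + 1)) F)) : Nat.card p.P = Nat.card F ^ (2 * m) := by
  have := p.card_P sB_alt
  rw [card_sp_space, show 2 * (m + 1) = 2 * m + 2 from rfl, pow_add] at this
  exact (Nat.eq_of_mul_eq_mul_right (pow_pos Nat.card_pos 2) this).symm

theorem psp_min {m : ℕ} (hm : 2 ≤ m) (hq : 3 ≤ Nat.card F) (hexc : ¬ (m = 2 ∧ Nat.card F = 3)) :
    (∀ H : Subgroup (Cfsg.PSp m F), H ≠ ⊤ →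
      (Nat.card F ^ (2 * m) - 1) / (Nat.card F - 1) ≤ H.index) ∧
    ∃ H : Subgroup (Cfsg.PSp m F), H.index = (Nat.card F ^ (2 * m) - 1) / (Nat.card F - 1) := by
  obtain ⟨m, rfl⟩ := Nat.exists_eq_add_of_le' (show 1 ≤ m by omega)
  have hb := Nat.div_mul_cancel (Nat.sub_one_dvd_pow_sub_one (Nat.card F) (2 * (m + 1)))
  refine psp_of_sg (fun H hH => ?_) ?_
  · by_contra! hlt
    haveI : Finite (SG (sB (Fin (m + 1)) F)) := Finite.of_equiv _ (spEquiv _ F).toEquiv
    refine sp_main (Ω := SG (sB (Fin (m + 1)) F) ⧸ H) sB_alt sB_nondeg hq ?_ (fun p => ?_)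
      (fun p => ?_) (exists_smul_ne hH)
    · have := Nat.mul_lt_mul_of_pos_right hlt (show 0 < Nat.card F - 1 by omega)
      rw [card_sp_space, ← Subgroup.index_eq_card, mul_comm]
      omega
    · rw [p.card_eq]; exact Nat.one_lt_pow (by omega) (by omega)
    · rw [p.card_eq]
      by_cases h : 4 ≤ Nat.card F
      exacts [Or.inl h, Or.inr (Nat.pow_lt_pow_right (by omega) (by omega))]
  · have hF := card_ne_zero_add (p := fun _ : F => True) trivial
    rw [Nat.card_congr (Equiv.subtypeUnivEquiv fun _ : F => trivial)] at hF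
    have hV := card_ne_zero_add (p := fun _ : Fin (m + 1) ⊕ Fin (m + 1) → F => True) trivial
    rw [Nat.card_congr (Equiv.subtypeUnivEquiv fun _ => trivial), card_sp_space] at hV
    obtain ⟨w, hw⟩ := exists_ne (0 : Fin (m + 1) ⊕ Fin (m + 1) → F)
    obtain ⟨K, hK, hK'⟩ := exists_index (G := SG (sB (Fin (m + 1)) F)) (F := F)
      {x : Fin (m + 1) ⊕ Fin (m + 1) → F | x ≠ 0 ∧ True} (by simp)
      (fun g x hx => by simpa [SG.smul_def] using hx)
      (fun x hx y hy => witt_one sB_nondeg sB_alt hx.1 hy.1) ⟨hw, trivial⟩ (κ := Nat.card F - 1)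
      fun x hx => by
        rw [← hF]
        exact Nat.card_congr (Equiv.subtypeEquivRight fun l => by simp [hx.1])
    refine ⟨K, hK _ ⟨-1, fun v => by simp [SG.smul_def, negSG_apply]⟩,
      Nat.eq_of_mul_eq_mul_right (show 0 < Nat.card F - 1 by omega) ?_⟩
    rw [hK', hb, ← hV]; rfl

end Cfsg.Agent.MinI
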