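import Cfsg.Agent.MinI.SpFin
import Cfsg.Agent.MinI.OLine2

/-!
Minimal index of the symplectic groups over the field with two elements.
-/

set_option autoImplicit false

namespace Cfsg.Agent.MinI

open Module Cfsg.Agent.Classical SpWitt SpMat SpSimple

variable {F V : Type*} [Field F] [AddCommGroup V] [Module F V] {B : LinearMap.BilinForm F V}

/-- A function with polar form `B`. -/
def IsQF (B : LinearMap.BilinForm F V) (θ : V → F) : Prop := ∀ u v, θ (u + v) = θ u + θ v + B u v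

open _root_.Classical in
/-- The sign of a field element. -/
noncomputable def sgn (c : F) : ℤ := if c = 0 then 1 else -1

theorem sgn_zero : sgn (0 : F) = 1 := by simp [sgn]

theorem sgn_one : sgn (1 : F) = -1 := by simp [sgn]

theorem IsQF.zero {θ : V → F} (h : IsQF B θ) : θ 0 = 0 := by simpa using h 0 0

section two
variable (hq : Nat.card F = 2)
include hq

theorem sgn_add (a b : F) : sgn (a + b) = sgn a * sgn b := by
  have := two_eq_zero_of_card_two hq
  rcases zero_or_one hq a with rfl | rfl <;> rcases zero_or_one hq b with rfl | rfl <;>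
    simp [sgn, one_add_one_eq_two, this]

theorem IsQF.tv_eq {θ : V → F} (h : IsQF B θ) (hA : B.IsAlt) {v : V} (hv : θ v = 0) (u : V) :
    θ ((tv hA v 1).1 u) = θ u + B u v := by
  rcases zero_or_one hq (B u v) with e | e <;> simp [tv_apply, h _ _, e, hv, h.zero]

theorem IsQF.shift {θ : V → F} (h : IsQF B θ) [Fintype V] {v : V} (hv : θ v = 1) :
    ∑ u, sgn (θ u + B u v) = -∑ u, sgn (θ u) := by
  rw [← Equiv.sum_comp (Equiv.addRight v) fun u => sgn (θ u), ← Finset.sum_neg_distrib]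
  refine Finset.sum_congr rfl fun u _ => ?_
  simp [h u v, hv, sgn_add hq, sgn_one]

variable [FiniteDimensional F V] (hA : B.IsAlt) (hB : B.Nondegenerate)
include hA hB

theorem IsQF.sq_sum {θ : V → F} (h : IsQF B θ) [Fintype V] :
    (∑ u, sgn (θ u)) ^ 2 = Nat.card V := by
  have h2 := two_eq_zero_of_card_two hq
  rw [sq, Finset.sum_mul_sum]
  simp_rw [fun u => (Equiv.sum_comp (Equiv.addLeft u) fun v => sgn (θ u) * sgn (θ v)).symm]
  rw [Finset.sum_comm, Finset.sum_eq_single 0]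
  · simp [← sgn_add hq, ← two_mul, h2, sgn_zero]
  · intro v _ hv
    obtain ⟨y, hy⟩ := exists_one hB hA.isRefl hv
    have e : ∀ u, sgn (θ u) * sgn (θ (u + v)) = sgn (θ v) * sgn (B u v) := fun u => by
      rw [← sgn_add hq, ← sgn_add hq, h u v]; congr 1; linear_combination θ u * h2
    simp only [Equiv.coe_addLeft, e, ← Finset.mul_sum]
    have : ∑ u, sgn (B u v) = -∑ u, sgn (B u v) := by
      conv_lhs => rw [← Equiv.sum_comp (Equiv.addRight y) fun u => sgn (B u v)]
      rw [← Finset.sum_neg_distrib]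
      refine Finset.sum_congr rfl fun u _ => ?_
      rw [Equiv.coe_addRight, map_add, LinearMap.add_apply, sgn_add hq, alt_swap hA hy,
        show (-1 : F) = 1 by linear_combination -h2, sgn_one]; simp
    rw [show ∑ u, sgn (B u v) = 0 by omega, mul_zero]
  · simp

omit hq [FiniteDimensional F V] hA hB in
theorem two_card_zero [Fintype V] (θ : V → F) :
    2 * (Nat.card {v // θ v = 0} : ℤ) = Nat.card V + ∑ u, sgn (θ u) := by
  classical
  rw [Nat.card_eq_fintype_card, Nat.card_eq_fintype_card, Fintype.card_subtype, Finset.card_filter,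
    Fintype.card, Finset.card_eq_sum_ones]
  push_cast
  rw [Finset.mul_sum, ← Finset.sum_add_distrib]
  exact Finset.sum_congr rfl fun u _ => by unfold sgn; split_ifs <;> simp

theorem IsQF.index [Finite F] {θ : V → F} (h : IsQF B θ) :
    ∃ K : Subgroup (SG B), K.index = Nat.card {v // θ v = 0} := by
  haveI : Finite V := Module.finite_of_finite F
  haveI := Fintype.ofFinite V
  letI := arrowAction (G := SG B) (A := V) (B := F)
  have hs : ∀ (g : SG B) (u : V), (g • θ) u = θ (g⁻¹.1 u) := fun _ _ => rfl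
  refine ⟨MulAction.stabilizer _ θ, ?_⟩
  rw [MulAction.index_stabilizer, ← Nat.card_coe_set_eq]
  refine (Nat.card_congr (Equiv.ofBijective (fun v => ⟨_, (tv hA v.1 1)⁻¹, rfl⟩)
    ⟨fun v w e => ?_, ?_⟩)).symm
  · refine Subtype.ext (sub_eq_zero.1 (hB.2 _ fun u => ?_))
    have := congrFun (congrArg Subtype.val e) u
    simpa [hs, h.tv_eq hq hA v.2, h.tv_eq hq hA w.2, sub_eq_zero] using this
  · rintro ⟨_, g, rfl⟩
    let φ : V →ₗ[F] F :=
      { toFun := fun u => θ (g⁻¹.1 u) - θ u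
        map_add' := fun u v => by rw [map_add, h, h, SG.map]; ring
        map_smul' := fun c u => by rcases zero_or_one hq c with rfl | rfl <;> simp }
    obtain ⟨v, hv⟩ := (B.toDual hB).surjective φ
    have e : ∀ u, θ (g⁻¹.1 u) = θ u + B u v := fun u => by
      have := LinearMap.congr_fun hv u
      rw [LinearMap.BilinForm.toDual_def] at this
      rw [alt_swap hA this]
      simp only [φ, LinearMap.coe_mk, AddHom.coe_mk]
      linear_combination (θ (g⁻¹.1 u) - θ u) * two_eq_zero_of_card_two hq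
    have h0 : θ v = 0 := (zero_or_one hq _).resolve_right fun h1 => by
      have e1 := h.shift hq h1
      have e2 := h.sq_sum hq hA hB
      simp_rw [← e] at e1
      rw [show ∑ u, sgn (θ (g⁻¹.1 u)) = ∑ u, sgn (θ u) from
        Equiv.sum_comp g⁻¹.1.toEquiv fun u => sgn (θ u)] at e1
      rw [show ∑ u, sgn (θ u) = 0 by omega] at e2
      have : 0 < Nat.card V := Nat.card_pos
      omega
    exact ⟨⟨v, h0⟩, Subtype.ext (funext fun u => by
      simp only [hs, inv_inv, h.tv_eq hq hA h0, e])⟩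

variable [Finite F] {Ω : Type*} [MulAction (SG B) Ω] [Finite Ω] (hd : 64 ≤ Nat.card V)
  (hn : 2 * Nat.card Ω < Nat.card V)
include hd hn

theorem full_of_two {ω : Ω} {x : V} (h0 : x ≠ 0) (hx : ¬ SX hA ω x) : SFull hA ω x := by
  obtain ⟨p, rfl, -⟩ := exists_spt hA hB (x := x) (y := 0) (by simpa using h0.symm) (by simp)
  obtain ⟨χ, hχ⟩ := exists_nontriv_char F
  refine p.full (eq_top_iff.2 fun a _ => (p.mem_A_iff hA hB hχ).2 fun d hD => ?_)
  by_contra h
  have h1 := (p.cover hA hB hχ (by rintro rfl; simp at h) hD).1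
  have h2 : Nat.card ((p.heis hA).R ω) ≤ 1 := by
    by_contra! h2
    exact hx (p.R_top.1 (eq_top_of_lt_two_mul (by omega)))
  have h3 : Nat.card ((p.heis hA).T ω) ≤ Nat.card Ω := Finite.card_subtype_le _
  have h4 : Nat.card (p.D hA χ ω) ≤ Nat.card p.P := Finite.card_subtype_le _
  have h5 : 0 < Nat.card (p.D hA χ ω) := Nat.card_pos
  have h6 := h1.trans (Nat.mul_le_mul_right _ (Nat.mul_le_mul h2 h3))
  rw [p.card_P hA, hq] at hd hn
  obtain ⟨d, hd'⟩ := Nat.exists_eq_add_of_le' h5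
  obtain ⟨M, hM⟩ := Nat.exists_eq_add_of_le' (show 1 ≤ Nat.card p.P by omega)
  rw [hq, hd', hM] at h6
  rw [hd', hM] at h4
  rw [hM] at hn hd
  simp only [Nat.add_sub_cancel] at h6
  nlinarith [Nat.mul_le_mul_right d (show Nat.card Ω ≤ 2 * M + 1 by omega)]

omit [FiniteDimensional F V] hA hB [MulAction (SG B) Ω] [Finite Ω] hn in
theorem exists_perp_four (u v w a : V) :
    ∃ b, b ≠ 0 ∧ b ≠ a ∧ B u b = 0 ∧ B v b = 0 ∧ B w b = 0 ∧ B a b = 0 := by
  haveI : Finite V := Nat.finite_of_card_ne_zero (by omega)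
  let φ := ((B u).prod ((B v).prod ((B w).prod (B a)))).toAddMonoidHom
  have h1 := card_eq_range_mul_ker φ ⊤
  have h2 : Nat.card ((⊤ : AddSubgroup V).map φ) ≤ 16 :=
    (Finite.card_subtype_le _).trans (by simp [hq])
  rw [AddSubgroup.card_top, top_inf_eq] at h1
  obtain ⟨b, b0, b1⟩ := exists_ne_two (X := φ.ker) (by nlinarith) 0
    (open _root_.Classical in if h : a ∈ φ.ker then ⟨a, h⟩ else 0)
  refine ⟨b, by simpa using b0, fun e => b1 (by simp [← e]), ?_⟩
  simpa [φ, Prod.ext_iff] using (AddMonoidHom.mem_ker).1 b.2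

open _root_.Classical in
theorem isQF_of_two {ω : Ω} {x₀ : V} (hx₀ : ¬ SX hA ω x₀) :
    IsQF B fun v => if v ≠ 0 ∧ SX hA ω v then (1 : F) else 0 := by
  have h2 := two_eq_zero_of_card_two hq
  set θ : V → F := fun v => if v ≠ 0 ∧ SX hA ω v then (1 : F) else 0 with hθ
  have uniq : ∀ x a s t, ¬ SX hA ω x → (spE hA x a * tv hA x s) • ω = ω →
      (spE hA x a * tv hA x t) • ω = ω → s = t := by
    intro x a s t hx h1 h3
    have := fix_sub h1 h3
    rw [← tv_neg, ← tv_add] at this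
    refine by_contra fun hst => hx fun c => ?_
    rcases zero_or_one hq c with rfl | rfl
    · rw [tv_zero, one_smul]
    · rwa [eq_one_of_card_two hq (a := -t + s) (by rwa [neg_add_eq_sub, sub_ne_zero])] at this
  have add : ∀ x a b s t, B x a = 0 → B x b = 0 → (spE hA x a * tv hA x s) • ω = ω →
      (spE hA x b * tv hA x t) • ω = ω → (spE hA x (a + b) * tv hA x (s + t + B b a)) • ω = ω := by
    intro x a b s t ha hb h1 h3
    rw [add_comm _ (B b a), tv_add, ← mul_assoc, ← spE_mul hA ha hb, tv_add, mul_assoc,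
      ← mul_assoc (spE hA x b), ← tv_spE hA hb (hA.self_eq_zero _) (alt_zero hA hb), mul_assoc,
      ← mul_assoc, mul_smul, h3, h1]
  have key : ∀ x y, x ≠ 0 → ¬ SX hA ω x → B x y = 0 → (spE hA x y * tv hA x (θ y)) • ω = ω := by
    intro x y h0 hx hxy
    have hf := full_of_two hq hA hB hd hn h0 hx
    by_cases hi : ∃ c : F, c • x = y
    · obtain ⟨c, rfl⟩ := hi
      have e : spE hA x (c • x) = 1 := SG.ext fun u => by
        rw [spE_apply hA hxy, map_smul, smul_smul, smul_eq_mul, mul_comm, add_assoc, ← add_smul,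
          ← two_mul, h2]; simp
      rw [e, one_mul, show θ (c • x) = 0 from if_neg fun h =>
        hx (h.2.of_smul (left_ne_zero_of_smul h.1)), tv_zero, one_smul]
    have hy0 : y ≠ 0 := fun e => hi ⟨0, by simp [e]⟩
    by_cases hy : SX hA ω y
    · obtain ⟨g, g1, -, g2⟩ := hf.move hB hxy (not_exists.1 hi) 1
      have e := hy.fix g1
      rw [g2] at e
      rw [show θ y = 1 from if_pos ⟨hy0, hy⟩]
      simpa only [mul_one, one_smul, one_pow] using hy.line hxy e 1
    obtain ⟨t, ht⟩ := hf y hxy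
    obtain ⟨p, rfl, hP⟩ := exists_spt hA hB (x := x) (y := y) (fun c e => by
      rcases zero_or_one hq c with rfl | rfl
      · exact h0 (by simp [← e])
      · exact hi ⟨1, by simp [← e]⟩) hxy
    obtain ⟨b, b1, b2⟩ : ∃ b : p.P, B y b = 0 ∧ ∀ c : F, c • (⟨y, hP⟩ : p.P) ≠ b := by
      by_contra! h
      have := p.card_le_sq hA hB (w := ⟨y, hP⟩) (by simpa using hy0) h
      rw [p.card_P hA, hq] at hd
      rw [hq] at this
      omega
    obtain ⟨a, a1, a2⟩ := p.orth_one hA hB b2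
    obtain ⟨s, hs⟩ := full_of_two hq hA hB hd hn hy0 hy b b1
    obtain ⟨r, hr⟩ := hf a a.2.1
    set g := spE hA y b * tv hA y s
    have g1 : g.1 p.x = p.x := by simp [g, tv_apply, spE_apply hA b1, hxy, b.2.1]
    have g2 : g.1 a = a + y := by
      simp only [g, SG.mul_apply, tv_apply, spE_apply hA b1, alt_zero hA a1, alt_swap hA a2,
        mul_zero, zero_smul, add_zero]
      rw [show (-1 : F) = 1 by linear_combination -h2]; simp
    have e : (g * (spE hA p.x a * tv hA p.x r) * g⁻¹) • ω = ω := by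
      rw [mul_smul, mul_smul, inv_smul_eq_iff.2 hs.symm, hr, hs]
    rw [← conj_mul, spE_conj, conj_tv, g1, g2] at e
    have := uniq _ _ _ _ hx e (add _ _ _ _ _ a.2.1 hxy hr ht)
    rw [show B y a = 0 from a1] at this
    rwa [show θ y = 0 from if_neg fun h => hy h.2, ← show t = 0 by linear_combination -this]
  have loc : ∀ x u v, x ≠ 0 → ¬ SX hA ω x → B x u = 0 → B x v = 0 → θ (u + v) = θ u + θ v + B u v := by
    intro x u v h0 hx hu hv
    rw [uniq _ _ _ _ hx (key x _ h0 hx (by simp [hu, hv]))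
      (add _ _ _ _ _ hu hv (key x u h0 hx hu) (key x v h0 hx hv)), ← hA.neg_eq]
    linear_combination -B u v * h2
  intro u v
  by_contra hc
  have h1 : ∀ x, x ≠ 0 → B u x = 0 → B v x = 0 → θ x = 1 := fun x h0 hu hv => by
    simpa [hθ, h0] using by_contra fun h => hc (loc x u v h0 h (alt_zero hA hu) (alt_zero hA hv))
  obtain ⟨a, a0, -, a1, a2, a3, -⟩ := exists_perp_four (B := B) hq hd u v x₀ 0
  obtain ⟨b, b0, b1, b2, b3, b4, b5⟩ := exists_perp_four (B := B) hq hd u v x₀ a
  have := loc x₀ a b (fun e => hx₀ (e ▸ sx_zero)) hx₀ a3 b4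
  rw [h1 a a0 a1 a2, h1 b b0 b2 b3, h1 _ (fun e => b1 (by
    rw [eq_neg_of_add_eq_zero_right e, neg_eq_iff_add_eq_zero, ← two_smul F, h2, zero_smul]))
    (by simp [a1, b2]) (by simp [a2, b3]), b5] at this
  simp at this

theorem sp_two_main (hnt : ∃ (g : SG B) (ω : Ω), g • ω ≠ ω) {r : ℕ} (hr : r ^ 2 = Nat.card V) :
    Nat.card V ≤ 2 * Nat.card Ω + r := by
  classical
  haveI : Finite V := Module.finite_of_finite F
  haveI := Fintype.ofFinite V
  obtain ⟨g₀, ω, hg⟩ := hnt
  obtain ⟨x₁, hx₁⟩ : ∃ x, ¬ SX hA ω x := by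
    by_contra! h
    exact hg ((eq_top_of_tv hB hA (MulAction.stabilizer _ ω) h).ge (Subgroup.mem_top g₀))
  have h := isQF_of_two hq hA hB hd hn hx₁
  let θ : Ω → V → F := fun ω v => if v ≠ 0 ∧ SX hA ω v then (1 : F) else 0
  have hθ : ∀ (g : SG B) u, θ (g⁻¹ • ω) u = θ ω (g.1 u) := fun g u => by
    have : SX hA (g⁻¹ • ω) u ↔ SX hA ω (g.1 u) :=
      ⟨fun h => by simpa using h.map g, fun h => by simpa [SG.inv_apply] using h.map g⁻¹⟩
    simp [θ, this]
  change IsQF B (θ ω) at h
  have h1 : Nat.card {v // θ ω v = 0} ≤ Nat.card Ω :=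
    Nat.card_le_card_of_injective (fun v => (tv hA v.1 1)⁻¹ • ω) fun v w e =>
      Subtype.ext (sub_eq_zero.1 (hB.2 _ fun u => by
        simpa [hθ, h.tv_eq hq hA v.2, h.tv_eq hq hA w.2, sub_eq_zero] using congrArg (fun y => θ y u) e))
  have h2 := two_card_zero (θ ω)
  have h3 := h.sq_sum hq hA hB
  rw [← hr, Nat.cast_pow, sq_eq_sq_iff_eq_or_eq_neg] at h3
  omega

end two

theorem psp_two_min [Finite F] (hq : Nat.card F = 2) {m : ℕ} (hm : 3 ≤ m) :
    (∀ H : Subgroup (Cfsg.PSp m F), H ≠ ⊤ → 2 ^ (m - 1) * (2 ^ m - 1) ≤ H.index) ∧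
    ∃ H : Subgroup (Cfsg.PSp m F), H.index = 2 ^ (m - 1) * (2 ^ m - 1) := by
  have h2 := two_eq_zero_of_card_two hq
  obtain ⟨m, rfl⟩ := Nat.exists_eq_add_of_le' (show 1 ≤ m by omega)
  have hV := card_sp_space (F := F) (m + 1)
  rw [hq, mul_comm, pow_mul] at hV
  have hb : 2 * (2 ^ (m + 1 - 1) * (2 ^ (m + 1) - 1)) + 2 ^ (m + 1) = (2 ^ (m + 1)) ^ 2 := by
    rw [Nat.add_sub_cancel, ← mul_assoc, ← pow_succ']
    obtain ⟨y, hy⟩ := Nat.exists_eq_add_of_le' (Nat.one_le_two_pow (n := m + 1))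
    rw [hy]; simp; ring
  refine psp_of_sg (fun H hH => ?_) ?_
  · by_contra! hlt
    haveI : Finite (SG (sB (Fin (m + 1)) F)) := Finite.of_equiv _ (spEquiv _ F).toEquiv
    have h8 : 2 ^ 3 ≤ 2 ^ (m + 1) := Nat.pow_le_pow_right (by omega) hm
    have := sp_two_main (Ω := SG (sB (Fin (m + 1)) F) ⧸ H) hq sB_alt sB_nondeg (by nlinarith)
      (by rw [← Subgroup.index_eq_card]; omega) (exists_smul_ne hH) hV.symm
    rw [← Subgroup.index_eq_card] at this
    omega
  · haveI := Fintype.ofFinite (Fin (m + 1) ⊕ Fin (m + 1) → F)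
    obtain ⟨θ, h, hs⟩ : ∃ θ, IsQF (sB (Fin (m + 1)) F) θ ∧ ∑ u, sgn (θ u) = -2 ^ (m + 1) := by
      have h : IsQF (sB (Fin (m + 1)) F) fun u => ∑ i, u (Sum.inr i) * u (Sum.inl i) := fun u v => by
        simp only [sB_eq_sum, ← Finset.sum_add_distrib, Pi.add_apply]
        exact Finset.sum_congr rfl fun i _ => by linear_combination u (Sum.inl i) * v (Sum.inr i) * h2
      have h3 := h.sq_sum hq sB_alt sB_nondeg
      rw [hV, Nat.cast_pow, sq_eq_sq_iff_eq_or_eq_neg] at h3
      rcases h3 with h3 | h3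
      · refine ⟨_, fun u v => ?_, (h.shift hq (v := fun i => if i = Sum.inl 0 ∨ i = Sum.inr 0 then 1 else 0)
          (by simp)).trans (by rw [h3]; simp)⟩
        simp only [h u v, map_add, LinearMap.add_apply]; ring
      · exact ⟨_, h, by simpa using h3⟩
    obtain ⟨K, hK⟩ := h.index hq sB_alt sB_nondeg
    have h3 := two_card_zero θ
    rw [hs, hV, ← hb, ← hK] at h3
    refine ⟨K, ?_, by
      generalize 2 ^ (m + 1 - 1) * (2 ^ (m + 1) - 1) = b at *
      push_cast at h3; omega⟩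
    rw [show negSG (sB (Fin (m + 1)) F) = 1 from SG.ext fun x => by
      rw [negSG_apply, SG.one_apply, neg_eq_iff_add_eq_zero, ← two_smul F, h2, zero_smul]]
    exact one_mem _

end Cfsg.Agent.MinI
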