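import Cfsg.Agent.MinI.UFin

/-!
The four-dimensional unitary group acting on a small set: local analysis.
-/

set_option autoImplicit false

namespace Cfsg.Agent.MinI

open Module Cfsg.Agent.Herm Pointwise

variable {F V : Type*} [Field F] [AddCommGroup V] [Module F V] [FiniteDimensional F V]
  {σ : F →+* F} {B : V →ₛₗ[σ] V →ₗ[F] F} [Finite F] {q : ℕ} (hB : HF B) (hF : Nat.card F = q ^ 2)

include hB in
theorem four_of_same {D : AddSubgroup V} {c : F} (hc : c ≠ 0) {d : V} (hd : d ∈ D) (hd0 : B d d = c)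
    (same : ∀ x ∈ D, x ≠ 0 → B x x = c) : Nat.card D ≤ 4 := by
  haveI : Finite V := Module.finite_of_finite F
  exact card_le_four (A := D) (((bAdd B).toFun d + (bAdd B).flip d).comp D.subtype) (d := ⟨d, hd⟩)
    (neg_ne_zero.2 hc) fun x x0 x1 => by
      have e1 := same _ x.2 (by simpa using x0)
      have e2 := same _ (D.add_mem hd x.2) fun e => x1 (Subtype.ext (eq_neg_of_add_eq_zero_right e))
      simp only [map_add, LinearMap.add_apply] at e2
      show B d x + B x d = _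
      linear_combination e2 - e1 - hd0

include hB in
omit [Finite F] in
theorem perp_two_dim (h : finrank F V = 2) {ξ x : V} (h0 : ξ ≠ 0) (h1 : B ξ ξ = 0) (h2 : B ξ x = 0) :
    ∃ c : F, c • ξ = x := by
  obtain ⟨p, rfl⟩ := exists_upt₀ hB h1 h0
  have := p.dim hB
  haveI : Subsingleton p.P := (Module.finrank_zero_iff (R := F)).1 (by omega)
  obtain ⟨a, e⟩ := p.decomp hB x
  exact ⟨_, by rw [Subsingleton.elim a 0, h2] at e; simpa using e.symm⟩

/-- An isotropic line. -/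
def Lb (B : V →ₛₗ[σ] V →ₗ[F] F) (A : AddSubgroup V) : Prop :=
  ∃ ξ, ξ ≠ 0 ∧ B ξ ξ = 0 ∧ ∀ a, a ∈ A ↔ ∃ c : F, c • ξ = a

/-- A Baer subplane in characteristic two. -/
def Ld (B : V →ₛₗ[σ] V →ₗ[F] F) (q : ℕ) (A : AddSubgroup V) : Prop :=
  (2 : F) = 0 ∧ ∀ y, y ≠ 0 → B y y = 0 → Nat.card {c : F // c • y ∈ A} = q

include hB hF in
theorem succ_le_orbit {A : AddSubgroup V} {ξ : V} (h0 : ξ ≠ 0) (h1 : B ξ ξ = 0) (hξ : ξ ∈ A)
    (h : ∀ a ∈ A, ∃ c : F, c • ξ = a) : q + 1 ≤ Nat.card (MulAction.orbit (SUG B) A) := by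
  haveI : Finite V := Module.finite_of_finite F
  refine (succ_le_thru hB hF (fun x hx _ a ha => ?_) A.zero_mem (by simp) hξ h1
    (by simpa using h0.symm)).trans (Nat.card_le_card_of_injective (fun X => ⟨X.1, X.2.1⟩)
      fun X Y e => Subtype.ext (by simpa using e))
  obtain ⟨c, rfl⟩ := h x hx
  obtain ⟨d, rfl⟩ := h a ha
  simp [h1]

theorem u4_ar {q k s n a m : ℕ} (hq : 2 ≤ q) (hn : n ≤ q ^ 4 + q ^ 3 + q)
    (h : k * s * (q ^ 2) ^ 2 ≤ n * a) (ha : a ≤ m) (hc : (q ^ 3 + q ^ 2 + 1) * m < k * s * q ^ 3) :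
    False := by
  have := h.trans (Nat.mul_le_mul hn ha)
  nlinarith [Nat.mul_lt_mul_of_pos_left hc (show 0 < q by omega)]

namespace UPt

variable {Ω : Type*} [MulAction (SUG B) Ω] [Finite Ω] (p : UPt B)

omit [Finite Ω] in
theorem orbit_T (ω : Ω) : ∀ X ∈ MulAction.orbit (SUG p.B1) ((p.heis hB).A ω),
    ∃ x ∈ (p.heis hB).T ω, (p.heis hB).A x = X := by
  rintro _ ⟨γ, rfl⟩
  obtain ⟨g, -, -, -, h⟩ := p.lift hB (Ω := Ω) γ
  refine ⟨g • ω, ⟨(h ω).1, ?_⟩, (h ω).2⟩
  rw [(h ω).2]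
  exact (Nat.card_congr (γ.1.1.toEquiv.subtypeEquiv fun a => su_mem_smul.symm)).symm

variable (hk : finrank F V = 4) (hn : Nat.card Ω ≤ q ^ 4 + q ^ 3 + q) {ω : Ω}
  (hω : (p.heis hB).R ω ≠ ⊤)
include hF hk hn hω

omit hn in
theorem master4 (S : Set (AddSubgroup p.P)) (hS : ∀ X ∈ S, ∃ x ∈ (p.heis hB).T ω, (p.heis hB).A x = X) :
    q * Nat.card S * (q ^ 2) ^ 2 ≤ Nat.card ((p.heis hB).Bad Ω) * Nat.card ((p.heis hB).A ω) ∧
    ((p.heis hB).R ω ≠ ⊥ → (q + 1) * Nat.card S * (q ^ 2) ^ 2 ≤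
      Nat.card ((p.heis hB).Bad Ω) * Nat.card ((p.heis hB).A ω)) := by
  have h := (p.heis hB).master (p.torus hB (by omega)) hω (Set.toFinite S).toFinset (by simpa using hS)
  have hd := p.dim hB
  rw [← Set.ncard_eq_toFinset_card, ← Nat.card_coe_set_eq, hB.toInv.card_fixF hF, card_herm hF p.P,
    show finrank F p.P = 2 by omega] at h
  exact ⟨h.1, h.2.1⟩

omit hn in
theorem A_le : Nat.card ((p.heis hB).A ω) ≤ q ^ 2 := by
  obtain ⟨χ, h1, t, ht⟩ := exists_char hω
  obtain ⟨x, rfl⟩ := skp_surj hB.toInv t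
  have hd := p.dim hB
  have := card_sq_le (bAdd p.B1) _ (bAdd_nd (p.hf hB) (χ := χ.compAddMonoidHom (skp hB.toInv)) ⟨x, ht⟩)
    fun a ha b hb => h1 _ ((p.heis hB).iso ha hb)
  rwa [card_herm hF p.P, show finrank F p.P = 2 by omega, sq, Nat.mul_self_le_mul_self_iff] at this

theorem iso4 : ∀ x ∈ (p.heis hB).A ω, B x x = 0 := by
  intro x hx
  by_contra hc
  have hq := two_le_of_card hF
  have hd : finrank F p.P = 2 := by have := p.dim hB; omega
  have hb : Nat.card ((p.heis hB).Bad Ω) ≤ q ^ 4 + q ^ 3 + q := (Finite.card_subtype_le _).trans hn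
  obtain ⟨m1, m2⟩ := p.master4 hB hF hk hω _ (p.orbit_T hB ω)
  have ha := p.A_le hB hF hk hω
  set A := (p.heis hB).A ω with hA
  set s := Nat.card (MulAction.orbit (SUG p.B1) A)
  have hs : s ≤ q + 1 := by
    by_contra! h
    exact u4_ar hq hb m1 ha (by nlinarith [Nat.mul_le_mul_left (q * q ^ 3) h, pow_pos (show 0 < q by omega) 2])
  have h1 : q + nv p.B1 1 = q ^ 3 := by
    have := (p.hf hB).nv_one hF
    rw [hd] at this
    zify
    exact mul_left_cancel₀ (show (q : ℤ) ≠ 0 by positivity) (by linear_combination this)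
  have cov : ∀ y ∈ A, B y y ≠ 0 → nv p.B1 1 ≤ s * Nat.card {v : p.P // B v v = B y y ∧ v ∈ A} := by
    intro y hy h0
    have := orbit_cover (G := SUG p.B1) A (fun v => B v v = B y y)
      (fun g v h => (UG.map_b g.1 v v).trans h) y fun v h => by
        obtain ⟨g, hg, e⟩ := (p.hf hB).SUG_trans (by omega) (x := y) h0 h.symm
        exact ⟨⟨g, hg⟩, e⟩
    rw [← (p.hf hB).nv_of_ne h0 (hB.fix y)]
    exact (Nat.le_mul_of_pos_right _ (Nat.card_pos_iff.2
      ⟨⟨A, MulAction.mem_orbit_self _, hy⟩, inferInstance⟩)).trans this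
  have h0 := card_ne_zero_add (p := fun v => v ∈ A) A.zero_mem
  change _ = Nat.card A at h0
  have inj : ∀ (c : F) (P : {v // v ≠ 0 ∧ v ∈ A} → Prop), c ≠ 0 → (∀ v, B v.1 v.1 = c → P v) →
      Nat.card {v : p.P // B v v = c ∧ v ∈ A} ≤ Nat.card {v // P v} := fun c P hc h =>
    Nat.card_le_card_of_injective (fun v => ⟨⟨v.1, by rintro e; simpa [e, hc.symm] using v.2.1, v.2.2⟩,
      h _ v.2.1⟩) fun v w e => Subtype.ext (by simpa using e)
  have cx := cov x hx hc
  have same : ∀ y ∈ A, B y y = 0 ∨ B y y = B x x := fun y hy => by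
    by_contra! h
    have e := card_add_le (X := {v // v ≠ 0 ∧ v ∈ A}) (p := fun v => B v.1 v.1 = B x x)
      (r := fun v => B v.1 v.1 = B y y) fun v h1 h2 => h.2 (h2.symm.trans h1)
    have e2 := Nat.mul_le_mul hs ((Nat.add_le_add (inj _ _ hc fun _ h => h)
      (inj _ _ h.1 fun _ h => h)).trans e)
    have := cov y hy h.1
    nlinarith [Nat.mul_le_mul_left (q + 1) (h0.le.trans ha), Nat.mul_le_mul_left (q ^ 2) hq]
  have hm := (inj _ (fun _ => True) hc fun _ _ => trivial).trans (Finite.card_subtype_le _)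
  have four := four_of_same (p.hf hB) hc hx rfl
  by_cases hR : (p.heis hB).R ω = ⊥
  swap
  · have hs' : s ≤ q := by
      by_contra! h
      exact u4_ar hq hb (m2 hR) ha (by
        nlinarith [Nat.mul_le_mul_left ((q + 1) * q ^ 3) h, pow_pos (show 0 < q by omega) 2,
          Nat.mul_le_mul_left (q ^ 2) hq, Nat.mul_le_mul_left (q ^ 3) hq])
    have hm' : q ^ 2 ≤ Nat.card {v : p.P // B v v = B x x ∧ v ∈ A} + 1 :=
      Nat.le_of_mul_le_mul_left (by
        have := cx.trans (Nat.mul_le_mul_right _ hs')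
        nlinarith) (show 0 < q by omega)
    have := four fun y hy y0 => by
      by_contra h
      have e := card_add_le (X := {v // v ≠ 0 ∧ v ∈ A}) (p := fun v => B v.1 v.1 = B x x)
        (r := fun v => v.1 = y) fun v h1 h2 => h (h2 ▸ h1)
      have := inj _ _ hc fun _ h => h
      have : 0 < Nat.card {v : {v // v ≠ 0 ∧ v ∈ A} // v.1 = y} :=
        Nat.card_pos_iff.2 ⟨⟨⟨y, y0, hy⟩, rfl⟩, inferInstance⟩
      omega
    refine hω (eq_top_of_card_le ?_)
    have := (AddSubgroup.one_lt_card_iff_ne_bot _).2 hR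
    rw [hB.toInv.card_fixF hF]
    nlinarith
  by_cases h2 : (2 : F) = 0
  · obtain ⟨l, hl, h⟩ := (p.mem_A hB).1 hx
    obtain ⟨t, ht⟩ := exists_skw hB.toInv (l := B x x) (by rw [hB.fix, ← two_mul, h2, zero_mul])
    have : t ∈ (p.heis hB).R ω := by
      show ue hB _ _ _ • ω = ω
      have e := ue_mul hB p.hu (p.up x) hl (p.up x) hl
      rw [← two_smul F, ← two_mul, h2, zero_smul, zero_mul, zero_add] at e
      rw [ht, ← e, mul_smul, h, h]
    rw [hR, AddSubgroup.mem_bot] at this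
    exact hc (by simp [← ht, this])
  · have := four fun y hy y0 => (same y hy).resolve_left fun h => by
      have e1 := (p.heis hB).iso hy hx
      rw [hR, AddSubgroup.mem_bot] at e1
      have e2 : B y x - B x y = 0 := by
        rw [← hB.symm y x, ← skw_skp hB.toInv]; exact mul_eq_zero_of_right _ (congrArg Subtype.val e1)
      have e3 : B y x ≠ 0 := fun e => by
        obtain ⟨c, rfl⟩ := perp_two_dim (p.hf hB) hd y0 h e
        simp [h] at hc
      have e4 := same _ (A.add_mem hx hy)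
      have e5 := same _ (A.sub_mem hx hy)
      simp only [Submodule.coe_add, Submodule.coe_sub, map_add, map_sub, LinearMap.add_apply,
        LinearMap.sub_apply, h] at e4 e5
      have n2 := mul_ne_zero h2 e3
      rcases e4 with e4 | e4
      · rcases e5 with e5 | e5
        · exact mul_ne_zero h2 hc (by linear_combination e4 + e5)
        · exact n2 (by linear_combination e2 - e5)
      · exact n2 (by linear_combination e2 + e4)
    have hq2 : q = 2 := by
      by_contra h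
      have : 3 ≤ q := by omega
      have h3 := cx.trans (Nat.mul_le_mul hs (hm.trans (show _ ≤ 3 by omega)))
      nlinarith [Nat.mul_le_mul_left (q ^ 2) this]
    haveI := Fintype.ofFinite F
    have := Nat.cast_card_eq_zero F
    rw [← Nat.card_eq_fintype_card, hF, hq2] at this
    exact h2 (pow_eq_zero_iff (two_ne_zero) |>.1 (by exact_mod_cast this))

omit hF hn hω [Finite Ω] [Finite F] in
theorem exists_scalar {l : F} (hl : σ l * l = 1) (x : Ω) :
    ∃ y ∈ (p.heis hB).T x, ∀ a, (σ l * σ l) • a ∈ (p.heis hB).A y ↔ a ∈ (p.heis hB).A x := by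
  have l0 : l ≠ 0 := by rintro rfl; simp at hl
  have l1 : σ l = l⁻¹ := eq_inv_of_mul_eq_one_left hl
  obtain ⟨g, g1, g2⟩ := hB.exists_diag p.hu p.hu' p.h1 (pow_ne_zero 2 l0)
  let a : normOne σ := ⟨(Units.mk0 l l0)⁻¹, inv_mem (by simpa [mem_normOne] using hl)⟩
  let s : SUG B := ⟨g * Herm.scal B a, by
    rw [mem_SUG, map_mul, Units.val_mul, g1, detU_scal, hk]; simp [a, l1]; field_simp⟩
  have s0 : ∀ v, s.1.1 v = l⁻¹ • g.1 v := fun v => by
    rw [← map_smul]; simp [s, a]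
  have s1 : s.1.1 p.u = l • p.u := by
    simp only [s0, g2, hB.one_symm p.h1, p.hu]
    match_scalars <;> field_simp <;> ring
  have hz : ∀ t, s * (p.heis hB).z t * s⁻¹ = (p.heis hB).z t := fun t => by
    simpa using p.conj_z hB (l := 1) s1 (by simp [l1, l0]) t
  have key : ∀ a : p.P, (σ l * σ l) • a ∈ (p.heis hB).A (s • x) ↔ a ∈ (p.heis hB).A x := fun a =>
    (p.heis hB).A_smul_of (c := 0) Function.surjective_id hz (by
      rw [Heis.z_zero, mul_one]
      show s * ue hB _ _ _ * _ = ue hB _ _ _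
      rw [ue_conj, s1, s0, g2, p.up, p.u'p, ue_smul_left hB p.hu (by simp [p.up]) (by
        rw [UPt.tro_tr hB]; simp [l1, l0])]
      simp [l1, smul_smul, l0]
      field_simp) x
  have n : σ l * σ l ≠ 0 := by simp [l0]
  exact ⟨s • x, ⟨Heis.R_smul_comm _ hz x, (Nat.card_congr ((MulAction.toPerm (Units.mk0 _ n)).subtypeEquiv
    fun a => (key a).symm)).symm⟩, key⟩

theorem local4 : (p.heis hB).R ω = ⊥ ∧ Nat.card ((p.heis hB).A ω) = q ^ 2 ∧
    (q + 1) * q ^ 3 ≤ Nat.card ((p.heis hB).Bad Ω) ∧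
    (Lb p.B1 ((p.heis hB).A ω) ∨ Ld p.B1 q ((p.heis hB).A ω)) := by
  have hq := two_le_of_card hF
  have hK := hB.toInv.card_fixF hF
  have hd : finrank F p.P = 2 := by have := p.dim hB; omega
  have hb : Nat.card ((p.heis hB).Bad Ω) ≤ q ^ 4 + q ^ 3 + q := (Finite.card_subtype_le _).trans hn
  have ha := p.A_le hB hF hk hω
  have iso := p.iso4 hB hF hk hn hω
  have m1 := (p.master4 hB hF hk hω _ (p.orbit_T hB ω)).1
  have fin : ∀ S : Set (AddSubgroup p.P), (∀ X ∈ S, ∃ x ∈ (p.heis hB).T ω, (p.heis hB).A x = X) →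
      q + 1 ≤ Nat.card S → (p.heis hB).R ω = ⊥ ∧ q ^ 2 < 2 * Nat.card ((p.heis hB).A ω) ∧
      (q + 1) * q ^ 3 ≤ Nat.card ((p.heis hB).Bad Ω) := fun S hS h => by
    obtain ⟨m1, m2⟩ := p.master4 hB hF hk hω S hS
    have e1 : q * q ^ 3 * (q + 1) ≤ q * q ^ 3 * Nat.card S := Nat.mul_le_mul_left _ h
    refine ⟨by_contra fun hR => u4_ar hq hb (m2 hR) ha (by
      nlinarith [Nat.mul_le_mul_left (q ^ 3) h, Nat.mul_le_mul_left (q ^ 2) hq,
        pow_pos (show 0 < q by omega) 2]), by_contra fun h' => u4_ar (m := q ^ 2) (k := 2 * q)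
          (s := Nat.card S) (a := 2 * Nat.card ((p.heis hB).A ω)) hq hb (by linarith)
          (by omega) (by
            nlinarith [Nat.mul_le_mul_left (q ^ 2) hq, Nat.mul_le_mul_left (q ^ 3) hq,
              pow_pos (show 0 < q by omega) 2]), ?_⟩
    refine Nat.le_of_mul_le_mul_right (c := q ^ 2) ?_ (by positivity)
    nlinarith [Nat.mul_le_mul_left (Nat.card ((p.heis hB).Bad Ω)) ha, Nat.mul_le_mul_left q e1]
  set A := (p.heis hB).A ω with hA
  have hs1 : 1 ≤ Nat.card (MulAction.orbit (SUG p.B1) A) :=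
    Nat.card_pos_iff.2 ⟨⟨A, MulAction.mem_orbit_self _⟩, inferInstance⟩
  obtain ⟨⟨ξ, hξ⟩, h0⟩ := AddSubgroup.ne_bot_iff_exists_ne_zero.1 (show A ≠ ⊥ from fun e =>
    u4_ar (m := 1) hq hb m1 (by simp [e]) (by
      nlinarith [Nat.mul_le_mul_left (q * q ^ 3) hs1, Nat.mul_le_mul_left (q ^ 2) hq,
        Nat.mul_le_mul_left (q ^ 3) hq, Nat.mul_le_mul_left q hq]))
  replace h0 : ξ ≠ 0 := by simpa using h0
  by_cases h : ∀ η ∈ A, B ξ η = 0
  · have h1 := fun a ha => perp_two_dim (p.hf hB) hd h0 (iso ξ hξ) (h a ha)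
    obtain ⟨f1, f2, f3⟩ := fin _ (p.orbit_T hB ω) (succ_le_orbit (p.hf hB) hF h0 (iso ξ hξ) hξ h1)
    have e : Nat.card (A.comap (LinearMap.toSpanSingleton F _ ξ).toAddMonoidHom) = Nat.card A :=
      Nat.card_congr (Equiv.ofBijective (fun c => ⟨c.1 • ξ, c.2⟩) ⟨fun c d e =>
        Subtype.ext (smul_left_injective F h0 (congrArg Subtype.val e)), fun a => by
          obtain ⟨c, hc⟩ := h1 a a.2
          exact ⟨⟨c, by simpa [hc] using a.2⟩, Subtype.ext hc⟩⟩)
    have e2 := eq_top_of_lt_two_mul (hF ▸ e ▸ f2)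
    exact ⟨f1, by rw [← e, e2, AddSubgroup.card_top, hF], f3, Or.inl ⟨ξ, h0, iso ξ hξ, fun a =>
      ⟨h1 a, fun ⟨c, hc⟩ => hc ▸ e2.ge (AddSubgroup.mem_top c)⟩⟩⟩
  push Not at h
  obtain ⟨η, hη, hb0⟩ := h
  have skew : ∀ a ∈ A, ∀ b ∈ A, σ (B a b) = -B a b := fun a ha b hb => by
    have := iso _ (A.add_mem ha hb)
    simp only [Submodule.coe_add, map_add, LinearMap.add_apply, iso a ha, iso b hb] at this
    rw [hB.symm]; linear_combination this
  have hb1 : B η ξ = -B ξ η := by rw [← hB.symm, skew _ hξ _ hη]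
  have coord : ∀ y : p.P, y = (-(B η y / B ξ η)) • ξ + (B ξ y / B ξ η) • η := fun y => by
    obtain ⟨c, hc⟩ := perp_two_dim (p.hf hB) hd h0 (iso ξ hξ) (x := y - (B ξ y / B ξ η) • η)
      (by simp [hb0])
    have := congrArg (fun v : p.P => B η v) hc
    simp only [Submodule.coe_smul, map_smul, hb1, Submodule.coe_sub, map_sub, iso η hη, smul_eq_mul,
      mul_zero, sub_zero] at this
    rw [← this, show -(c * -B ξ η / B ξ η) = c by field_simp, hc, sub_add_cancel]
  let ι : fixF σ × fixF σ →+ p.P :=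
    { toFun := fun c => (c.1 : F) • ξ + (c.2 : F) • η
      map_zero' := by simp
      map_add' := fun c d => by simp only [Prod.fst_add, Prod.snd_add, Subfield.coe_add]; module }
  have bι : ∀ c, B ξ (ι c) = c.2 * B ξ η ∧ B η (ι c) = -(c.1 * B ξ η) := fun c => by
    simp [ι, iso ξ hξ, iso η hη, hb1]
  have fx : ∀ a ∈ A, ∀ b ∈ A, B a b / B ξ η ∈ fixF σ := fun a ha b hb => by
    rw [mem_fixF, map_div₀, skew _ ha _ hb, skew _ hξ _ hη, neg_div_neg_eq]
  have sur : ∀ a ∈ A, ∃ c, ι c = a := fun a ha =>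
    ⟨(-⟨_, fx _ hη _ ha⟩, ⟨_, fx _ hξ _ ha⟩), (coord a).symm⟩
  have e : Nat.card (A.comap ι) = Nat.card A :=
    Nat.card_congr (Equiv.ofBijective (fun c => ⟨ι c.1, c.2⟩) ⟨fun c d e => by
      have e : ι c.1 = ι d.1 := congrArg Subtype.val e
      have e1 := (bι c).1.symm.trans (e ▸ (bι d).1)
      have e2 := (bι c).2.symm.trans (e ▸ (bι d).2)
      exact Subtype.ext (Prod.ext (by simpa [hb0] using e2) (by simpa [hb0] using e1)), fun a => by
        obtain ⟨c, hc⟩ := sur a a.2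
        exact ⟨⟨c, by simpa [hc] using a.2⟩, Subtype.ext hc⟩⟩)
  by_cases h2 : (2 : F) = 0
  · have m1 : (-1 : F) = 1 := by linear_combination -h2
    choose y hy hy' using fun l : normOne σ => p.exists_scalar hB hk (mem_normOne.1 l.2) ω
    obtain ⟨f1, f2, f3⟩ := fin (Set.range fun l => (p.heis hB).A (y l)) (by
      rintro _ ⟨l, rfl⟩; exact ⟨_, hy l, rfl⟩) (by
      rw [Nat.card_range_of_injective, hB.toInv.card_normOne hF]
      intro l l' e
      have l1 := mem_normOne.1 l.2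
      have l2 := mem_normOne.1 l'.2
      have e1 := (hy' l ξ).2 hξ
      rw [show (p.heis hB).A (y l) = _ from e, show (σ l.1 * σ l.1) • ξ = (σ l'.1 * σ l'.1) •
        (((l'.1 : F) * σ l.1) ^ 2 • ξ) by
          rw [smul_smul]; congr 1; linear_combination (-(σ l.1 * σ l.1) * (σ l'.1 * l'.1 + 1)) * l2,
        hy'] at e1
      have e2 := skew _ hη _ e1
      rw [Submodule.coe_smul, map_smul, smul_eq_mul, map_mul, skew _ hη _ hξ, hb1, map_pow, map_mul,
        hB.invol] at e2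
      haveI : CharP F 2 := CharTwo.of_one_ne_zero_of_two_eq_zero one_ne_zero h2
      have e3 : σ l'.1 * l.1 = l'.1 * σ l.1 := CharTwo.sq_injective
        (mul_right_cancel₀ hb0 (by linear_combination e2))
      have e4 : (l.1 : F) ^ 2 = l'.1 ^ 2 := by
        linear_combination (l.1 * l'.1 : F) * e3 - (l.1 : F) ^ 2 * l2 + (l'.1 : F) ^ 2 * l1
      exact Subtype.ext (Units.ext (CharTwo.sq_injective e4)))
    have e2 := eq_top_of_lt_two_mul (S := A.comap ι) (by rwa [e, Nat.card_prod, hK, ← sq])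
    refine ⟨f1, by rw [← e, e2, AddSubgroup.card_top, Nat.card_prod, hK, sq], f3, Or.inr ⟨h2, ?_⟩⟩
    have key : ∀ y ∈ A, y ≠ 0 → ∀ c : F, c • y ∈ A ↔ c ∈ fixF σ := fun y hy y0 c => by
      obtain ⟨d, rfl⟩ := sur y hy
      refine ⟨fun h => ?_, fun h => ?_⟩
      · have n : B ξ (ι d) ≠ 0 ∨ B η (ι d) ≠ 0 := by
          by_contra! h'
          exact y0 (by rw [coord (ι d), h'.1, h'.2]; simp)
        rcases n with n | n
        · simpa [skew _ hξ _ hy, n, mem_fixF] using skew _ hξ _ h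
        · simpa [skew _ hη _ hy, n, mem_fixF] using skew _ hη _ h
      · convert e2.ge (AddSubgroup.mem_top (⟨c, h⟩ * d.1, ⟨c, h⟩ * d.2)) using 1
        simp [ι, smul_smul]
    intro v v0 hv
    obtain ⟨κ, κ0, hκ⟩ : ∃ κ : F, κ ≠ 0 ∧ κ • v ∈ A := by
      have c1 := coord v
      generalize -(B η v / B ξ η) = α at c1
      generalize B ξ v / B ξ η = β at c1
      subst c1
      rcases eq_or_ne α 0 with rfl | α0
      · have β0 : β ≠ 0 := by rintro rfl; simp at v0
        exact ⟨β⁻¹, inv_ne_zero β0, by simpa [β0] using hη⟩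
      refine ⟨α⁻¹, inv_ne_zero α0, ?_⟩
      rw [smul_add, inv_smul_smul₀ α0, smul_smul]
      refine A.add_mem hξ ((key η hη (by rintro rfl; simp at hb0) _).2 ?_)
      simp only [res_apply, Submodule.coe_add, Submodule.coe_smul, map_add, map_smul, b_smul_left,
        LinearMap.add_apply, iso ξ hξ, iso η hη, hb1, smul_eq_mul] at hv
      have : σ α ≠ 0 := (map_ne_zero σ).2 α0
      rw [mem_fixF, map_mul, map_inv₀]
      field_simp
      exact mul_right_cancel₀ hb0 (by linear_combination -hv)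
    rw [← hK]
    exact Nat.card_congr ((Equiv.mulRight₀ _ (inv_ne_zero κ0)).subtypeEquiv fun c => by
      rw [← key _ hκ (smul_ne_zero κ0 v0), smul_smul]; simp [κ0])
  exfalso
  obtain ⟨χ, h1, t, ht⟩ := exists_char hω
  have e1 := card_sq_le ((((p.heis hB).β).compl₂ ι).comp ι) χ (fun c hc => by
    have n : skp hB.toInv (B ξ η) ≠ 0 := fun e => by
      have := skw_skp hB.toInv (B ξ η)
      rw [e, skew _ hξ _ hη] at this
      exact mul_ne_zero h2 hb0 (by simpa [two_mul] using this.symm)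
    have hβ : ∀ d, (p.heis hB).β (ι c) (ι d) = (c.1 * d.2 - c.2 * d.1) * skp hB.toInv (B ξ η) :=
      fun d => Subtype.ext (mul_left_cancel₀ (skw_ne hB.toInv) (by
        erw [skw_skp]
        simp only [Subfield.coe_mul, mul_left_comm (skw _), skw_skp]
        simp [ι, bAdd_apply, iso ξ hξ, iso η hη, hb1, skew _ hξ _ hη, fun t : fixF σ => mem_fixF.1 t.2]
        ring))
    by_cases h : c.1 = 0
    · have : c.2 ≠ 0 := fun e => hc (Prod.ext h e)
      exact ⟨(-t / (c.2 * skp hB.toInv (B ξ η)), 0), by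
        erw [hβ]; convert ht using 2; simp only [mul_zero]; field_simp; ring⟩
    · exact ⟨(0, t / (c.1 * skp hB.toInv (B ξ η))), by
        erw [hβ]; convert ht using 2; simp only [mul_zero]; field_simp; ring⟩)
    (A := A.comap ι) fun c hc d hd => h1 _ ((p.heis hB).iso hc hd)
  rw [e, Nat.card_prod, hK, Nat.mul_self_le_mul_self_iff] at e1
  have e2 : ∀ g : SUG p.B1, g • A = A := fun g => by
    by_contra hne
    haveI : Nontrivial (MulAction.orbit (SUG p.B1) A) :=
      ⟨⟨g • A, g, rfl⟩, ⟨A, MulAction.mem_orbit_self _⟩, fun e => hne (congrArg Subtype.val e)⟩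
    exact u4_ar hq hb m1 e1 (by
      nlinarith [Nat.mul_le_mul_left (q * q ^ 3) (Finite.one_lt_card (α := MulAction.orbit (SUG p.B1) A)),
        Nat.mul_le_mul_left (q ^ 2) hq, Nat.mul_le_mul_left (q ^ 3) hq, Nat.mul_le_mul_left q hq])
  have e3 : ∀ t : fixF σ, (skw hB.toInv * t * B ξ η) • ξ ∈ A := fun t => by
    simpa using A.neg_mem (ue_sub_mem (p.hf hB) (v := 0) (iso ξ hξ) (by simp)
      (by simpa using skw_mul hB.toInv t) (e2 _) hη)
  have e4 : Nat.card (Option (fixF σ)) ≤ Nat.card A :=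
    Nat.card_le_card_of_injective (fun o => o.elim ⟨η, hη⟩ fun t => ⟨_, e3 t⟩) (by
      rintro (_ | s) (_ | t) e
      · rfl
      · simpa [hb0, iso ξ hξ] using congrArg (fun v => B ξ v.1) e
      · simpa [hb0.symm, iso ξ hξ] using congrArg (fun v => B ξ v.1) e
      · simpa [hb0, hb1, skw_ne] using congrArg (fun v => B η v.1) e)
  rw [Finite.card_option, hK] at e4
  omega

theorem mix4 {ω' : Ω} (hω' : (p.heis hB).R ω' ≠ ⊤) (h : Lb p.B1 ((p.heis hB).A ω)) :
    Lb p.B1 ((p.heis hB).A ω') := by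
  by_contra hc
  have hq := two_le_of_card hF
  obtain ⟨a1, a2, -⟩ := p.local4 hB hF hk hn hω
  obtain ⟨b1, b2, -⟩ := p.local4 hB hF hk hn hω'
  obtain ⟨ξ, h0, h1, h2⟩ := h
  have h3 := succ_le_orbit (p.hf hB) hF h0 h1 ((h2 ξ).2 ⟨1, one_smul _ _⟩) fun a => (h2 a).1
  have h4 := (p.master4 hB hF hk hω (insert ((p.heis hB).A ω') _) (by
    rintro X (rfl | hX)
    exacts [⟨ω', ⟨b1.trans a1.symm, b2.trans a2.symm⟩, rfl⟩, p.orbit_T hB ω X hX])).1
  rw [Nat.card_coe_set_eq, Set.ncard_insert_of_notMem (by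
    rintro ⟨g, e⟩
    refine hc ⟨g.1.1 ξ, by simpa [UG.apply_eq_zero] using h0, (UG.map_b _ _ _).trans h1, fun a => ?_⟩
    obtain ⟨a, rfl⟩ : ∃ b, g.1.1 b = a := ⟨_, su_apply_inv g a⟩
    simp only [← e, su_mem_smul, h2, ← map_smul, EmbeddingLike.apply_eq_iff_eq]),
    ← Nat.card_coe_set_eq] at h4
  exact u4_ar hq ((Finite.card_subtype_le _).trans hn) h4 a2.le (by
    nlinarith [Nat.mul_le_mul_left (q * q ^ 3) h3, Nat.mul_le_mul_left (q ^ 2) hq,
      pow_pos (show 0 < q by omega) 2])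

end UPt

end Cfsg.Agent.MinI
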