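import Cfsg.Agent.MinI.U4a

/-!
The four-dimensional unitary group acting on a small set: counting on an isotropic line.
-/

set_option autoImplicit false

namespace Cfsg.Agent.MinI

open Module Cfsg.Agent.Herm Pointwise

theorem card_option_sub {X : Type*} [Finite X] (P : Option X → Prop) :
    (P none → Nat.card {o // P o} = Nat.card {a // P (some a)} + 1) ∧
    (¬ P none → Nat.card {o // P o} = Nat.card {a // P (some a)}) := by
  constructor <;> intro h
  · rw [← Finite.card_option]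
    refine (Nat.card_congr (Equiv.ofBijective (fun o => o.elim ⟨none, h⟩ fun a => ⟨some a.1, a.2⟩)
      ⟨?_, ?_⟩)).symm
    · rintro (_ | a) (_ | b) e <;> simp_all [Subtype.ext_iff]
    · rintro ⟨_ | a, ha⟩
      exacts [⟨none, rfl⟩, ⟨some ⟨a, ha⟩, rfl⟩]
  · refine (Nat.card_congr (Equiv.ofBijective (fun a => ⟨some a.1, a.2⟩) ⟨fun a b e => ?_, ?_⟩)).symm
    · simpa [Subtype.ext_iff] using e
    · rintro ⟨_ | a, ha⟩
      exacts [absurd ha h, ⟨⟨a, ha⟩, rfl⟩]

variable {F V : Type*} [Field F] [AddCommGroup V] [Module F V] [FiniteDimensional F V]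
  {σ : F →+* F} {B : V →ₛₗ[σ] V →ₗ[F] F} {Ω : Type*} [MulAction (SUG B) Ω] (hB : HF B)

/-- Elements of the radical of `z` in direction `y` fixing `ω`. -/
abbrev UM (ω : Ω) (z y : V) : Type _ :=
  {x : F × fixF σ // ue hB z (x.1 • y) (skw hB.toInv * x.2) • ω = ω}

theorem UM_map (g : SUG B) (ω : Ω) (z y : V) :
    Nat.card (UM hB (g • ω) (g.1.1 z) (g.1.1 y)) = Nat.card (UM hB ω z y) :=
  Nat.card_congr (Equiv.subtypeEquivRight fun x => by rw [← map_smul, ue_smul_iff])

theorem UPt.card_UM (p : UPt B) {ω : Ω} (hR : (p.heis hB).R ω = ⊥) {a : p.P} (ha : B a a = 0) (c : F) :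
    Nat.card (UM hB ω p.u (a + c • p.u)) = Nat.card {β : F // β • a ∈ (p.heis hB).A ω} := by
  have hl : ∀ (β : F) (t : fixF σ), skw hB.toInv * t + σ (skw hB.toInv * t) = B (β • a) (β • a) :=
    fun β t => by simpa [ha] using skw_mul hB.toInv t
  have e : ∀ (β : F) (t : fixF σ), ue hB p.u (β • (a.1 + c • p.u)) (skw hB.toInv * t) =
      ue hB p.u (β • a) (skw hB.toInv * (t + skp hB.toInv (β * c) : fixF σ)) := fun β t => by
    rw [smul_add, smul_smul, ue_add_smul p.hu (by simp [p.up]) (hl β t), Subfield.coe_add, mul_add,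
      skw_skp, add_sub_assoc]
  refine Nat.card_congr (Equiv.ofBijective (fun x => ⟨x.1.1, (p.mem_A hB).2 ⟨_, hl _ _, e _ _ ▸ x.2⟩⟩)
    ⟨?_, fun ⟨β, hβ⟩ => ?_⟩)
  · rintro ⟨⟨β, s⟩, h1⟩ ⟨⟨β', t⟩, h2⟩ h
    obtain rfl : β = β' := congrArg Subtype.val h
    rw [e] at h1 h2
    have : s - t ∈ (p.heis hB).R ω := by
      have h3 := ue_mul hB p.hu (v := 0) (l := skw hB.toInv * (s - t : fixF σ)) (by simp)
        (by simpa using skw_mul hB.toInv (s - t))
        (p.up (β • a)) (hl β (t + skp hB.toInv (β * c)))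
      rw [zero_add, map_zero, LinearMap.zero_apply, add_zero, ← mul_add, ← Subfield.coe_add,
        ← add_assoc, sub_add_cancel] at h3
      show ue hB _ _ _ • ω = ω
      conv_lhs => rw [← h2]
      erw [← mul_smul, h3]
      exact h1
    rw [hR, AddSubgroup.mem_bot, sub_eq_zero] at this
    simp [this]
  · obtain ⟨l, h1, h2⟩ := (p.mem_A hB).1 hβ
    obtain ⟨t, rfl⟩ := exists_skw hB.toInv (l := l) (by simpa [ha] using h1)
    exact ⟨⟨(β, t - skp hB.toInv (β * c)), by rwa [e, sub_add_cancel]⟩, rfl⟩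

/-- The radical of an isotropic line. -/
noncomputable def gam (u y : V) (x : fixF σ × F × fixF σ) : SUG B :=
  ue hB u (x.2.1 • y) (skw hB.toInv * x.1) * ue hB y 0 (skw hB.toInv * x.2.2)

/-- The condition to lie in the radical of a point of the line. -/
noncomputable def phi (h : Inv σ) : Option F → fixF σ × F × fixF σ → fixF σ
  | none, x => x.2.2
  | some α, x => x.1 + x.2.2 * ⟨σ α * α, by simp [mem_fixF, h.invol, mul_comm]⟩ - skp h (α * x.2.1)

theorem phi_some (h : Inv σ) (α : F) (x : fixF σ × F × fixF σ) : phi h (some α) x = 0 ↔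
    skw h * x.1 + skw h * x.2.2 * (σ α * α) - α * x.2.1 + σ α * σ x.2.1 = 0 := by
  rw [Subtype.ext_iff, ← mul_right_inj' (skw_ne h)]
  simp only [phi, Subfield.coe_sub, Subfield.coe_add, Subfield.coe_mul, mul_sub, skw_skp, map_mul,
    Subfield.coe_zero, mul_zero]
  constructor <;> intro e <;> linear_combination e

theorem phi_sub (h : Inv σ) (o : Option F) (x y : fixF σ × F × fixF σ) :
    phi h o (x - y) = phi h o x - phi h o y := by
  rcases o with _ | α
  · rfl
  · simp only [phi, Prod.fst_sub, Prod.snd_sub, mul_sub, map_sub]; ring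

variable {u y : V} (hu : B u u = 0) (hy : B y y = 0) (h : B u y = 0)
include hu hy h

theorem gam_apply (x : fixF σ × F × fixF σ) (v : V) : (gam hB u y x).1.1 v =
    v + (σ x.2.1 * B y v - skw hB.toInv * x.1 * B u v) • u -
      (x.2.1 * B u v + skw hB.toInv * x.2.2 * B y v) • y := by
  rw [gam, su_mul, ut_apply hB hy (skw_mul _ _),
    ue_apply hB hu (by simp [h]) (by simpa [hy] using skw_mul hB.toInv x.1)]
  simp only [map_sub, map_smul, b_smul_left, hy, h, smul_eq_mul]
  module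

theorem gam_add (a b : fixF σ × F × fixF σ) : gam hB u y (a + b) = gam hB u y a * gam hB u y b :=
  su_ext fun v => by
    simp only [su_mul, gam_apply hB hu hy h, map_add, map_sub, map_smul, hu, hy, h, hB.zero_symm h,
      smul_eq_mul, Prod.fst_add, Prod.snd_add, Subfield.coe_add]
    module

theorem gam_phi {α : F} {x : fixF σ × F × fixF σ} (e : phi hB.toInv (some α) x = 0) :
    gam hB u y x = ue hB (y + α • u) ((-σ x.2.1 - α * (skw hB.toInv * x.2.2)) • u)
      (skw hB.toInv * x.2.2) := su_ext fun v => by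
  have e1 := eq_neg_of_add_eq_zero_right (skw_mul hB.toInv x.2.2)
  rw [phi_some] at e
  rw [gam_apply hB hu hy h, ue_apply hB (by simp [hu, hy, h, hB.zero_symm h])
    (by simp [hu, hB.zero_symm h]) (by simpa [hu] using skw_mul hB.toInv x.2.2)]
  generalize skw hB.toInv * x.2.2 = c at *
  simp only [map_add, map_sub, map_neg, map_mul, e1, LinearMap.add_apply, b_smul_left, hB.invol]
  match_scalars
  · ring
  · linear_combination (-B u v) * e
  · ring

variable [Finite F] {q : ℕ} (hF : Nat.card F = q ^ 2) {ω : Ω}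
  (hT : ∀ z, z ≠ 0 → B z z = 0 → ∀ t : fixF σ, ue hB z 0 (skw hB.toInv * t) • ω = ω → t = 0)
  (u0 : u ≠ 0) (hi : ∀ α : F, y + α • u ≠ 0)

omit [Finite F] in
theorem card_phi_none : Nat.card {x // gam hB u y x • ω = ω ∧ phi hB.toInv none x = 0} =
    Nat.card (UM hB ω u y) := by
  refine (Nat.card_congr (Equiv.ofBijective (fun x => ⟨(x.1.2, x.1.1, 0), by
    simpa [gam, ue_zero] using x.2, rfl⟩) ⟨fun a b e => ?_, ?_⟩)).symm
  · simp only [Subtype.mk.injEq, Prod.mk.injEq] at e
    exact Subtype.ext (Prod.ext e.2.1 e.1)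
  · rintro ⟨⟨s, β, t⟩, h1, rfl : t = 0⟩
    exact ⟨⟨(β, s), by simpa [gam, ue_zero] using h1⟩, rfl⟩

omit [Finite F] in
theorem card_phi_some (α : F) : Nat.card {x // gam hB u y x • ω = ω ∧ phi hB.toInv (some α) x = 0} =
    Nat.card (UM hB ω (y + α • u) u) := by
  refine Nat.card_congr (Equiv.ofBijective (fun x => ⟨(_, x.1.2.2), gam_phi hB hu hy h x.2.2 ▸ x.2.1⟩)
    ⟨?_, ?_⟩)
  · rintro ⟨⟨s, β, t⟩, _, h1⟩ ⟨⟨s', β', t'⟩, _, h2⟩ e
    simp only [Subtype.mk.injEq, Prod.mk.injEq] at e ⊢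
    obtain ⟨e, rfl⟩ := e
    obtain rfl : β = β' := σ.injective (by linear_combination -e)
    simpa [phi] using h1.trans h2.symm
  · rintro ⟨⟨δ, t⟩, h1⟩
    have e1 := eq_neg_of_add_eq_zero_right (skw_mul hB.toInv t)
    let β := skw hB.toInv * t * σ α - σ δ
    have e : phi hB.toInv (some α) (-phi hB.toInv (some α) (0, β, t), β, t) = 0 := by simp [phi]
    have e2 : -σ β - α * (skw hB.toInv * t) = δ := by
      simp only [β, map_sub, map_mul _ _ (σ α), e1, hB.invol]; ring
    exact ⟨⟨_, by rwa [gam_phi hB hu hy h e, e2], e⟩, Subtype.ext (Prod.ext e2 rfl)⟩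

include hF hT u0 hi

theorem card_phi {x : fixF σ × F × fixF σ} (x0 : x ≠ 0) (hx : gam hB u y x • ω = ω) :
    Nat.card {o // phi hB.toInv o x = 0} = q + 1 := by
  obtain ⟨s, β, t⟩ := x
  have s0 := skw_ne hB.toInv
  have s1 := skw_map hB.toInv
  have fs : σ s = s := s.2
  have ft : σ t = t := t.2
  by_cases ht : t = 0
  · subst ht
    have β0 : β ≠ 0 := by
      rintro rfl
      exact x0 (by simp [hT u u0 hu s (by simpa [gam, ue_zero] using hx)])
    rw [(card_option_sub fun o => phi hB.toInv o (s, β, 0) = 0).1 rfl, ← hB.toInv.card_fixF hF, ← hB.toInv.card_trace fs]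
    congr 1
    refine Nat.card_congr ((Equiv.mulRight₀ _ (div_ne_zero β0 s0)).subtypeEquiv fun α => ?_)
    simp only [phi_some, Equiv.mulRight₀_apply, map_mul, map_div₀, s1, Subfield.coe_zero]
    constructor <;> intro e <;> field_simp at e ⊢ <;> linear_combination -e
  have t0 : (t : F) ≠ 0 := by simpa using ht
  let a := -σ β / (skw hB.toInv * t)
  let κ := -(s : F) / t - σ β * β / (skw hB.toInv * t) ^ 2
  have key : ∀ α, phi hB.toInv (some α) (s, β, t) = 0 ↔ σ (α - a) * (α - a) = κ := fun α => by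
    simp only [phi_some, a, κ, map_sub, map_div₀, map_neg, map_mul, s1, ft, hB.invol]
    constructor <;> intro e <;> field_simp at e ⊢
    · linear_combination (skw hB.toInv * t) * e
    · refine mul_left_cancel₀ (mul_ne_zero s0 t0) ?_
      linear_combination e
  rw [(card_option_sub fun o => phi hB.toInv o (s, β, t) = 0).2 ht, ← hB.toInv.card_norm hF (μ := κ) (fun e => ?_) (by
    simp [κ, fs, ft, s1, hB.invol, mul_comm, mul_pow])]
  · exact Nat.card_congr ((Equiv.subRight a).subtypeEquiv key)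
  rw [gam_phi hB hu hy h ((key a).2 (by simp [e])), show -σ β - a * (skw hB.toInv * t) = 0 by
    simp [a, s0, t0], zero_smul] at hx
  exact ht (hT _ (hi a) (by simp [hu, hy, h, hB.zero_symm h]) _ hx)

theorem line_count {m : ℕ} (h1 : Nat.card (UM hB ω u y) = m)
    (h2 : ∀ α : F, Nat.card (UM hB ω (y + α • u) u) = m) :
    ∃ b n, b + 1 ∣ q ^ 4 ∧ n + 1 = m ∧ b * (q + 1) = (q ^ 2 + 1) * n := by
  have hK := hB.toInv.card_fixF hF
  have h0 : gam hB u y 0 • ω = ω := (addStab _ (gam_add hB hu hy h) ω).zero_mem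
  have e : ∀ o, Nat.card {x // x ≠ 0 ∧ gam hB u y x • ω = ω ∧ phi hB.toInv o x = 0} + 1 = m :=
    fun o => (card_ne_zero_add ⟨h0, by simpa using phi_sub hB.toInv o 0 0⟩).trans (by
      rcases o with _ | α
      exacts [(card_phi_none hB hu hy h).trans h1, (card_phi_some hB hu hy h α).trans (h2 α)])
  refine ⟨Nat.card {x // x ≠ 0 ∧ gam hB u y x • ω = ω}, m - 1, ?_, by have := e none; omega, ?_⟩
  · rw [card_ne_zero_add h0, show q ^ 4 = Nat.card (fixF σ × F × fixF σ) by
      simp only [Nat.card_prod, hK, hF]; ring]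
    exact (addStab _ (gam_add hB hu hy h) ω).card_addSubgroup_dvd_card
  rw [← hF, ← Finite.card_option]
  refine double_count_eq (fun (x : {x // x ≠ 0 ∧ gam hB u y x • ω = ω}) o => phi hB.toInv o x.1 = 0)
    (fun x => card_phi hB hu hy h hF hT u0 hi x.2.1 x.2.2) fun o => ?_
  rw [← e o, Nat.card_congr (Equiv.subtypeSubtypeEquivSubtypeInter _ fun x => phi hB.toInv o x = 0)]
  simp [and_assoc]

omit hT u0 hi in
theorem two_le_UM (h1 : q < Nat.card (UM hB ω u y)) (α : F) : 2 ≤ Nat.card (UM hB ω (y + α • u) u) := by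
  rw [← card_phi_none hB hu hy h, ← hB.toInv.card_fixF hF] at h1
  rw [← card_phi_some hB hu hy h]
  obtain ⟨a, b, h2, h3⟩ : ∃ a b : {x // gam hB u y x • ω = ω ∧ phi hB.toInv none x = 0}, a ≠ b ∧
      phi hB.toInv (some α) a.1 = phi hB.toInv (some α) b.1 := by
    by_contra! hc
    exact h1.not_ge (Nat.card_le_card_of_injective _ fun a b e => by_contra fun n => hc a b n e)
  have S := addStab _ (gam_add hB hu hy h) ω
  haveI : Nontrivial {x // gam hB u y x • ω = ω ∧ phi hB.toInv (some α) x = 0} :=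
    ⟨⟨a.1 - b.1, (addStab _ (gam_add hB hu hy h) ω).sub_mem a.2.1 b.2.1, by rw [phi_sub, h3, sub_self]⟩,
      ⟨0, (addStab _ (gam_add hB hu hy h) ω).zero_mem, by simpa using phi_sub hB.toInv _ 0 0⟩,
      fun e => h2 (Subtype.ext (sub_eq_zero.1 (congrArg Subtype.val e)))⟩
  exact Finite.one_lt_card

end Cfsg.Agent.MinI
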