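import Cfsg.Agent.MinI.U4b

/-!
Minimal index of the four-dimensional unitary groups.
-/

set_option autoImplicit false

namespace Cfsg.Agent.MinI

open Module Cfsg.Agent.Herm Pointwise

variable {F V : Type*} [Field F] [AddCommGroup V] [Module F V] [FiniteDimensional F V]
  {σ : F →+* F} {B : V →ₛₗ[σ] V →ₗ[F] F} [Finite F] {q : ℕ} (hB : HF B) (hF : Nat.card F = q ^ 2)
  {Ω : Type*} [MulAction (SUG B) Ω] [Finite Ω] (hk : finrank F V = 4)
include hF hk

omit [Finite Ω] in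
theorem UPt.exists_bad (p : UPt B) (hnt : ∃ (g : SUG B) (ω : Ω), g • ω ≠ ω) :
    ∃ ω : Ω, ¬ UX hB ω p.u := by
  by_contra! h
  obtain ⟨g, ω, hg⟩ := hnt
  have : hB.tvGroup ≤ (MulAction.stabilizer (SUG B) ω).map (SUG B).subtype := by
    refine (Subgroup.closure_le _).2 ?_
    rintro _ ⟨v, c, hv, rfl⟩
    refine ⟨ue hB v 0 (-c), ?_, (hB.tv_eq_eich hv c).symm⟩
    rcases eq_or_ne v 0 with rfl | h0
    · rw [show ue hB 0 0 (-c) = 1 from Subtype.ext (hB.eich_zero_left _ _)]; exact one_mem _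
    obtain ⟨k, hk⟩ := su_trans hB (by omega) p.u_ne h0 (hv.trans p.hu.symm)
    have := (h (k⁻¹ • ω)).map k
    rw [smul_inv_smul] at this
    exact hk ▸ this _
  rw [hB.tvGroup_eq hF (by omega) (by omega)] at this
  obtain ⟨k, hk, e⟩ := this g.2
  exact hg (Subtype.ext e ▸ hk)

variable (hn : Nat.card Ω ≤ q ^ 4 + q ^ 3 + q)
include hn

theorem UPt.all_bad [MulAction.IsPretransitive (SUG B) Ω] (p : UPt B) {ω₀ : Ω} (h₀ : ¬ UX hB ω₀ p.u)
    (ω : Ω) : ¬ UX hB ω p.u := fun hω => by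
  haveI : Finite V := Module.finite_of_finite F
  have hq := two_le_of_card hF
  have hd : finrank F p.P = 2 := by have := p.dim hB; omega
  have hsum : Nat.card {x : Ω // UX hB x p.u} + Nat.card ((p.heis hB).Bad Ω) = Nat.card Ω := by
    classical
    rw [← Nat.card_congr (Equiv.sumCompl fun x : Ω => UX hB x p.u), Nat.card_sum]
    congr 1
    exact Nat.card_congr (Equiv.subtypeEquivRight fun x => p.R_top.not)
  have b1 := (p.local4 hB hF hk hn (mt p.R_top.1 h₀)).2.2.1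
  have b2 := card_range_mul (fun x : (p.heis hB).Bad Ω => MulAction.orbit (p.heis hB).Q x.1) (q ^ 3)
    fun x => by
      obtain ⟨a1, a2, -⟩ := p.local4 hB hF hk hn x.2
      have e := (p.heis hB).card_orbit x.1
      rw [a1, a2, AddSubgroup.card_bot, card_herm hF p.P, hd, hB.toInv.card_fixF hF] at e
      rw [← Nat.eq_of_mul_eq_mul_right (by positivity) (e.trans (show _ = q ^ 3 * _ by ring))]
      refine Nat.card_congr (Equiv.ofBijective (fun y => ⟨y.1.1, MulAction.orbit_eq_iff.1 y.2⟩)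
        ⟨fun a b e => Subtype.ext (Subtype.ext (by simpa using e)), ?_⟩)
      rintro ⟨_, g, rfl⟩
      exact ⟨⟨⟨g • x.1, ((p.heis hB).R_smul g _).trans_ne x.2⟩, MulAction.orbit_smul _ _⟩, rfl⟩
  generalize Nat.card (Set.range _) = k at b2
  have h3 : q < q ^ 3 := by nlinarith [Nat.mul_le_mul_left (q ^ 2) hq]
  have hk1 : k = q + 1 := le_antisymm (Nat.lt_succ_iff.1 (Nat.lt_of_mul_lt_mul_right (a := q ^ 3)
    (by nlinarith))) (Nat.le_of_mul_le_mul_right (b2 ▸ b1) (by positivity))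
  have e1 : nz B 0 = (q ^ 2 - 1) * ((q ^ 2 + 1) * (q ^ 3 + 1)) := by
    have := hB.nv_zero hF
    rw [← nz_zero, hk] at this
    zify [show 1 ≤ q ^ 2 by nlinarith]
    exact mul_left_cancel₀ (show (q : ℤ) ≠ 0 by positivity) (by push_cast at this; linear_combination this)
  have e2 := double_count_eq (fun (v : {v // v ≠ 0 ∧ B v v = 0}) (x : Ω) => UX hB x v.1)
    (a := Nat.card {x : Ω // UX hB x p.u}) (b := Nat.card {v | (v ≠ 0 ∧ B v v = 0) ∧ UX hB ω v})
    (fun v => by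
      obtain ⟨g, hg⟩ := su_trans hB (by omega) p.u_ne v.2.1 (v.2.2.trans p.hu.symm)
      rw [← hg]
      exact (Nat.card_congr ((MulAction.toPerm g).subtypeEquiv fun x => (ux_iff g).symm)).symm)
    fun x => by
      rw [Nat.card_congr (Equiv.subtypeSubtypeEquivSubtypeInter _ fun v => UX hB x v)]
      have hr : ∀ (g : SUG B) v (y : Ω), ((v ≠ 0 ∧ B v v = 0) ∧ UX hB y v) →
          (g • v ≠ 0 ∧ B (g • v) (g • v) = 0) ∧ UX hB (g • y) (g • v) := fun g v y h =>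
        ⟨⟨fun e => h.1.1 ((UG.apply_eq_zero g.1).1 e), (UG.map_b g.1 v v).trans h.1.2⟩, h.2.map g⟩
      exact le_antisymm (card_transport _ hr x ω) (card_transport _ hr ω x)
  obtain ⟨m, hm⟩ := sub_one_dvd_card (F := F) {v | (v ≠ 0 ∧ B v v = 0) ∧ UX hB ω v} (by simp)
    fun c hc v hv => ⟨⟨smul_ne_zero hc hv.1.1, by simp [hv.1.2]⟩, hv.2.smul hv.1.2 c⟩
  rw [hm, hF, show Nat.card {v // v ≠ 0 ∧ B v v = 0} = _ from e1, mul_assoc,
    mul_left_comm (Nat.card Ω), ← hsum, ← b2, hk1] at e2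
  have e3 := Nat.eq_of_mul_eq_mul_left (Nat.sub_pos_of_lt (by nlinarith)) e2
  have hpos : 0 < Nat.card {x : Ω // UX hB x p.u} := Nat.card_pos_iff.2 ⟨⟨ω, hω⟩, inferInstance⟩
  have hφ : Nat.card {x : Ω // UX hB x p.u} ≤ q := by rw [← hsum, ← b2, hk1] at hn; nlinarith
  generalize Nat.card {x : Ω // UX hB x p.u} = φ at *
  have m1 : m < q ^ 2 := by
    by_contra! h
    nlinarith [Nat.mul_le_mul_left (φ + (q + 1) * q ^ 3) h,
      Nat.mul_le_mul_left ((q ^ 2 + 1) * (q ^ 3 + 1)) hφ, Nat.mul_le_mul_left (q ^ 4) hq,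
      Nat.mul_le_mul_left (q ^ 3) hq, Nat.mul_le_mul_left (q ^ 2) hq, Nat.mul_le_mul_left q hq]
  obtain ⟨y, hy⟩ := Nat.exists_eq_add_of_lt m1
  have m0 : 1 ≤ m := Nat.pos_of_ne_zero (by rintro rfl; simp at e3; omega)
  have : q ^ 3 ∣ (y + 2) * φ := (Nat.dvd_add_right (dvd_mul_right (q ^ 3) ((q ^ 2 + 1) * φ))).1
    ⟨(q + 1) * m, by nlinarith⟩
  have h4 := Nat.le_of_dvd (by positivity) this
  have h5 : y + 2 = q ^ 2 := le_antisymm (by omega) (Nat.le_of_mul_le_mul_right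
    (by nlinarith [Nat.mul_le_mul_left (y + 2) hφ]) (show 0 < q by omega))
  obtain rfl : m = 1 := by omega
  have h6 : q ≤ φ := Nat.le_of_mul_le_mul_left (by nlinarith) (show 0 < q ^ 2 by positivity)
  nlinarith [Nat.mul_le_mul_left ((q ^ 2 + 1) * (q ^ 3 + 1)) h6, Nat.mul_le_mul_left (q ^ 5) hq,
    Nat.mul_le_mul_left (q ^ 4) hq, Nat.mul_le_mul_left (q ^ 3) hq]

include hB in
theorem su_four [MulAction.IsPretransitive (SUG B) Ω] (hnt : ∃ (g : SUG B) (ω : Ω), g • ω ≠ ω) :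
    False := by
  have hq := two_le_of_card hF
  obtain ⟨e, f, h3, h4, h5⟩ := hB.exists_hyp_pair (by omega)
  let p : UPt B := ⟨e, f, h3, h4, h5⟩
  obtain ⟨ω₀, h₀⟩ := p.exists_bad hB hF hk hnt
  have bad := fun ω => mt p.R_top.1 (p.all_bad hB hF hk hn h₀ ω)
  have loc := fun ω => p.local4 hB hF hk hn (bad ω)
  have tr : ∀ z, z ≠ 0 → B z z = 0 → ∃ g : SUG B, g.1.1 z = p.u := fun z h0 h1 =>
    su_trans hB (by omega) h0 p.u_ne (p.hu.trans h1.symm)
  have hT : ∀ (ω : Ω) z, z ≠ 0 → B z z = 0 → ∀ t : fixF σ, ue hB z 0 (skw hB.toInv * t) • ω = ω →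
      t = 0 := fun ω z h0 h1 t ht => by
    obtain ⟨g, hg⟩ := tr z h0 h1
    rw [← ue_smul_iff g, hg, map_zero] at ht
    exact (loc _).1.le ht
  have red : ∀ (ω : Ω) z y, z ≠ 0 → B z z = 0 → B y y = 0 → B z y = 0 → (∀ c : F, c • z ≠ y) →
      ∃ (x : Ω) (a : p.P), a ≠ 0 ∧ B a a = 0 ∧
        Nat.card (UM hB ω z y) = Nat.card {β : F // β • a ∈ (p.heis hB).A x} :=
    fun ω z y h0 h1 h2 h3 h4 => by
      obtain ⟨g, hg⟩ := tr z h0 h1
      obtain ⟨a, ha⟩ := p.decomp hB (g.1.1 y)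
      generalize B p.u' (g.1.1 y) = c at ha
      rw [← hg, UG.map_b, h3, zero_smul, add_zero, hg] at ha
      have h6 : B a a = 0 := by
        simpa [ha, p.hu, p.up, hB.zero_symm (p.up _), h2] using UG.map_b g.1 y y
      refine ⟨g • ω, a, fun e => h4 c (g.1.1.injective ?_), h6, ?_⟩
      · simp [ha, e, hg]
      · rw [← UM_map hB g, hg, ha, p.card_UM hB (loc _).1 h6]
  have ind : ∀ a : p.P, a ≠ 0 → (∀ α : F, a.1 + α • p.u ≠ 0) ∧ ∀ α c : F, c • (a.1 + α • p.u) ≠ p.u :=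
    fun a h0 => by
      have : ∀ c d : F, c • a.1 = d • p.u → c = 0 ∧ d = 0 := fun c d e => by
        have d0 : d = 0 := by simpa [p.u'p, hB.one_symm p.h1] using (congrArg (B p.u') e).symm
        exact ⟨by simpa [d0, h0] using e, d0⟩
      refine ⟨fun α e => one_ne_zero (this 1 (-α) (by
        rw [one_smul, neg_smul, eq_neg_of_add_eq_zero_left e])).1, fun α c e => ?_⟩
      have := this c (1 - c * α) (by rw [sub_smul, one_smul, mul_smul, eq_sub_iff_add_eq, ← smul_add, e])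
      simp [this.1] at this
  have red' : ∀ (a : p.P), a ≠ 0 → B a a = 0 → ∀ α : F, ∃ (x : Ω) (b : p.P), b ≠ 0 ∧ B b b = 0 ∧
      Nat.card (UM hB ω₀ (a + α • p.u) p.u) = Nat.card {β : F // β • b ∈ (p.heis hB).A x} :=
    fun a h0 h1 α => red _ _ _ ((ind a h0).1 α) (by simp [h1, p.hu, p.up, hB.zero_symm (p.up _)]) p.hu
      (by simp [p.hu, hB.zero_symm (p.up _)]) ((ind a h0).2 α)
  have base : ∀ a : p.P, B a a = 0 → Nat.card (UM hB ω₀ p.u a) =
      Nat.card {β : F // β • a ∈ (p.heis hB).A ω₀} := fun a h => by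
    simpa using p.card_UM hB (loc ω₀).1 h 0
  by_cases hb : Lb p.B1 ((p.heis hB).A ω₀)
  · have all := fun ω => p.mix4 hB hF hk hn (bad ω₀) (bad ω) hb
    obtain ⟨ξ, h0, h1, h2⟩ := hb
    replace h1 : B ξ ξ = 0 := h1
    have full : ∀ (x : Ω) (a : p.P), (∀ β : F, β • a ∈ (p.heis hB).A x) →
        Nat.card {β : F // β • a ∈ (p.heis hB).A x} = q ^ 2 := fun x a h =>
      (Nat.card_congr (Equiv.subtypeUnivEquiv h)).trans hF
    have e1 := (base ξ h1).trans (full _ _ fun β => (h2 _).2 ⟨β, rfl⟩)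
    obtain ⟨b, n, d1, d2, d3⟩ := line_count hB p.hu h1 (p.up ξ) hF (hT ω₀) p.u_ne (ind ξ h0).1 e1
      fun α => by
        have e2 := two_le_UM hB p.hu h1 (p.up ξ) hF (ω := ω₀) (by rw [e1]; nlinarith) α
        obtain ⟨x, a, -, -, e3⟩ := red' ξ h0 h1 α
        rw [e3] at e2 ⊢
        obtain ⟨η, -, -, k⟩ := all x
        haveI := Finite.one_lt_card_iff_nontrivial.1 e2
        obtain ⟨⟨β, hβ⟩, β0⟩ := exists_ne (⟨0, by simp⟩ : {β : F // β • a ∈ (p.heis hB).A x})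
        obtain ⟨c, hc⟩ := (k _).1 hβ
        refine full _ _ fun γ => (k _).2 ⟨γ / β * c, ?_⟩
        rw [mul_smul, hc, smul_smul, div_mul_cancel₀ _ (by simpa using β0)]
    obtain ⟨r, rfl⟩ := Nat.exists_eq_add_of_le' (show 1 ≤ q by omega)
    obtain rfl : n = r * (r + 2) := by nlinarith
    obtain rfl : b = ((r + 1) ^ 2 + 1) * r := 
      Nat.eq_of_mul_eq_mul_right (show 0 < r + 1 + 1 by omega) (d3.trans (by ring))
    have c : Nat.Coprime (1 + r * (r + 1)) (r + 1) := by simp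
    have := (c.pow_right 4).eq_one_of_dvd (Dvd.dvd.trans ⟨r + 1, by ring⟩ d1)
    nlinarith
  have all := fun ω => (loc ω).2.2.2.resolve_left fun h => hb (p.mix4 hB hF hk hn (bad ω) (bad ω₀) h)
  obtain ⟨ξ, h0, h1⟩ := (p.hf hB).exists_isotropic (by have := p.dim hB; omega)
  obtain ⟨b, n, -, rfl, d3⟩ := line_count hB p.hu h1 (p.up ξ) hF (hT ω₀) p.u_ne (ind ξ h0).1
    ((base ξ h1).trans ((all _).2 ξ h0 h1)) fun α => by
      obtain ⟨x, a, a0, a1, e3⟩ := red' ξ h0 h1 α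
      exact e3.trans ((all x).2 a a0 a1)
  have : n + 2 ∣ 4 := (Nat.dvd_add_right (dvd_mul_right (n + 2) b)).1 ⟨n ^ 2 + 2, by nlinarith⟩
  obtain rfl : n = 2 := by
    have := Nat.le_of_dvd (by norm_num) this
    obtain rfl | rfl : n = 1 ∨ n = 2 := by omega
    · omega
    · rfl
  haveI := Fintype.ofFinite F
  have := Nat.cast_card_eq_zero F
  rw [← Nat.card_eq_fintype_card, hF] at this
  exact one_ne_zero (α := F) (by push_cast at this; linear_combination this - 4 * (all ω₀).1)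

omit hn in
include hB in
theorem su_four_index : ∃ K : Subgroup (SUG B),
    (∀ g : SUG B, (∃ c : F, ∀ v : V, g • v = c • v) → g ∈ K) ∧ K.index = (q + 1) * (q ^ 3 + 1) := by
  have hq := two_le_of_card hF
  haveI : Nontrivial V := Module.nontrivial_of_finrank_pos (R := F) (by omega)
  haveI : Finite V := Module.finite_of_finite F
  obtain ⟨W, h1, h2⟩ := hB.exists_iso_finrank (k := 2) (by omega)
  refine ⟨(stab B W).subgroupOf (SUG B), fun g ⟨c, hc⟩ => mem_stab_of_le fun v hv =>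
    (show g.1.1 v = c • v from hc v).symm ▸ W.smul_mem c hv, ?_⟩
  have e1 := hB.card_stab_inf_SUG hF W
  have e2 := hB.card_SUG hF
  rw [hB.card_stab_iso hF h1 h2, ← Nat.card_congr (Subgroup.subgroupOfEquivOfLe inf_le_right).toEquiv,
    Subgroup.inf_subgroupOf_right, hk] at e1
  rw [hB.card_UG' hF, ← ((stab B W).subgroupOf (SUG B)).index_mul_card, mul_left_comm, e1, hk] at e2
  have p1 : 1 < q ^ 2 := by nlinarith
  have p2 : q ^ 2 < (q ^ 2) ^ 2 := by nlinarith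
  refine Nat.eq_of_mul_eq_mul_right ?_ (e2.trans ?_)
  · simp only [ordU, Fin.prod_univ_two]
    norm_num
    exact ⟨by positivity, by omega, by nlinarith⟩
  · simp only [ordU, Finset.prod_range_succ, Fin.prod_univ_two]
    norm_num
    zify [p1.le, p2.le, (p1.trans p2).le, show 1 ≤ q ^ 4 by nlinarith]
    ring

end Cfsg.Agent.MinI
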